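import Cfsg.Agent.H33.DodMax

/-!
# Maximality of the stabiliser of `{d, dᶜ}` for a dodecad `d` (S1566) (helper33)
-/

set_option autoImplicit false

namespace Cfsg.Agent.H33

open Cfsg Cfsg.Agent.H9 MulAction
open scoped Pointwise

theorem hDO : DodOctHyp := dodOctHyp_of hW hS

/-- a finite set mapped 2-to-1 has twice the size of its image -/
theorem card_eq_two_mul_card_image {α β : Type*} [DecidableEq α] [DecidableEq β] (s : Finset α)
    (f : α → β) (h : ∀ a ∈ s, (s.filter (fun b => f b = f a)).card = 2) :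
    s.card = 2 * (s.image f).card := by
  rw [Finset.card_eq_sum_card_fiberwise (f := f) (t := s.image f)
    (fun a ha => Finset.mem_image_of_mem f ha)]
  rw [Finset.sum_congr rfl (g := fun _ => 2), Finset.sum_const, smul_eq_mul, mul_comm]
  intro b hb
  obtain ⟨a, ha, rfl⟩ := Finset.mem_image.mp hb
  exact h a ha

theorem dodecad_ne_compl {e : Finset GolayPt} (he : e ∈ dodecads) : e ≠ eᶜ := by
  intro h
  have h1 : e.Nonempty := by
    rw [← Finset.card_pos, he.2]; norm_num
  obtain ⟨x, hx⟩ := h1
  have hx' : x ∈ eᶜ := h ▸ hx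
  exact (Finset.mem_compl.mp hx') hx

theorem dodecad_pair_stabilizer_isCoatom (d : Finset GolayPt) (hd : d ∈ dodecads) :
    IsCoatom (stabilizer Cfsg.M24 ({d, dᶜ} : Finset (Finset GolayPt))) := by
  classical
  show IsCoatom (stabilizer Cfsg.M24 (pairOf d))
  obtain ⟨hcases, h4, h6, h8⟩ := dodecad_result hW hDN hDO d hd
  let c : Finset (Finset GolayPt) → Fin 2 := fun y =>
    if ∃ e ∈ y, (d ∩ e).card = 6 then 1 else 0
  have hc4 : ∀ e, (d ∩ e).card = 4 → c (pairOf e) = 0 := by
    intro e he
    have : ¬ ∃ f ∈ pairOf e, (d ∩ f).card = 6 := by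
      rintro ⟨f, hf, hf6⟩
      rcases mem_pairOf.mp hf with rfl | rfl
      · omega
      · have := card_inter_compl_dod (e := e) hd
        omega
    exact if_neg this
  have hc6 : ∀ e, (d ∩ e).card = 6 → c (pairOf e) = 1 := by
    intro e he
    exact if_pos ⟨e, mem_pairOf.mpr (Or.inl rfl), he⟩
  -- every element of the orbit other than the base point has a representative meeting `d` in
  -- 4 or 6 points
  have hrep : ∀ y, y ∈ orbit Cfsg.M24 (pairOf d) → y ≠ pairOf d →
      ∃ e ∈ dodecads, y = pairOf e ∧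
        (((d ∩ e).card = 4 ∧ c y = 0) ∨ ((d ∩ e).card = 6 ∧ c y = 1)) := by
    intro y hy hne
    obtain ⟨e, he, rfl⟩ := (orbit_pairOf hd y).mp hy
    have hed : e ≠ d := by rintro rfl; exact hne rfl
    have hedc : e ≠ dᶜ := by rintro rfl; exact hne (pairOf_compl d)
    rcases dodecad_inter_card hW hd he with h | h | h | h | h
    · exact absurd (dodecad_eq_compl_of_inter hd he h) hedc
    · exact ⟨e, he, rfl, Or.inl ⟨h, hc4 e h⟩⟩
    · exact ⟨e, he, rfl, Or.inr ⟨h, hc6 e h⟩⟩
    · have h' : (d ∩ eᶜ).card = 4 := by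
        have := card_inter_compl_dod (e := e) hd
        omega
      refine ⟨eᶜ, dodecad_compl_mem he, (pairOf_compl e).symm, Or.inl ⟨h', ?_⟩⟩
      rw [← pairOf_compl e]
      exact hc4 _ h'
    · exact absurd (dodecad_eq_of_inter hd he h) hed
  have hne4 : ∀ e, e ∈ dodecads → (d ∩ e).card = 4 ∨ (d ∩ e).card = 6 → pairOf e ≠ pairOf d := by
    intro e he h46 h
    rcases pairOf_eq_iff.mp h with rfl | rfl
    · rw [Finset.inter_self, hd.2] at h46
      omega
    · rw [Finset.inter_compl] at h46
      simp at h46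
  refine isCoatom_stabilizer_of_suborbits (G := Cfsg.M24) (pairOf d) c ![495, 792] ?_ ?_ ?_ ?_
  · intro i
    fin_cases i
    · show {y | y ∈ orbit Cfsg.M24 (pairOf d) ∧ y ≠ pairOf d ∧ c y = 0}.ncard = 495
      have hset : {y | y ∈ orbit Cfsg.M24 (pairOf d) ∧ y ≠ pairOf d ∧ c y = 0} =
          pairOf '' {e | e ∈ dodecads ∧ (d ∩ e).card = 4} := by
        ext y
        constructor
        · rintro ⟨hy, hne, hc⟩
          obtain ⟨e, he, rfl, h | h⟩ := hrep y hy hne
          · exact ⟨e, ⟨he, h.1⟩, rfl⟩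
          · rw [h.2] at hc
            exact absurd hc (by decide)
        · rintro ⟨e, ⟨he, h⟩, rfl⟩
          exact ⟨(orbit_pairOf hd _).mpr ⟨e, he, rfl⟩, hne4 e he (Or.inl h), hc4 e h⟩
      rw [hset, Set.InjOn.ncard_image, h4]
      rintro e ⟨he, h⟩ f ⟨hf, h'⟩ hef
      rcases pairOf_eq_iff.mp hef with rfl | rfl
      · rfl
      · have := card_inter_compl_dod (e := f) hd
        omega
    · show {y | y ∈ orbit Cfsg.M24 (pairOf d) ∧ y ≠ pairOf d ∧ c y = 1}.ncard = 792
      let A : Finset (Finset GolayPt) :=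
        Finset.univ.filter (fun e => e ∈ dodecads ∧ (d ∩ e).card = 6)
      have hA : (A : Set (Finset GolayPt)) = {e | e ∈ dodecads ∧ (d ∩ e).card = 6} := by
        ext e; simp [A]
      have hAc : A.card = 1584 := by
        rw [← Set.ncard_coe_finset, hA, h6]
      have hset : {y | y ∈ orbit Cfsg.M24 (pairOf d) ∧ y ≠ pairOf d ∧ c y = 1} =
          ((A.image pairOf : Finset _) : Set (Finset (Finset GolayPt))) := by
        ext y
        simp only [Set.mem_setOf_eq, Finset.coe_image, Set.mem_image, Finset.mem_coe]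
        constructor
        · rintro ⟨hy, hne, hc⟩
          obtain ⟨e, he, rfl, h | h⟩ := hrep y hy hne
          · rw [h.2] at hc
            exact absurd hc (by decide)
          · exact ⟨e, by simp [A, he, h.1], rfl⟩
        · rintro ⟨e, heA, rfl⟩
          have heA' : e ∈ dodecads ∧ (d ∩ e).card = 6 := by simpa [A] using heA
          exact ⟨(orbit_pairOf hd _).mpr ⟨e, heA'.1, rfl⟩, hne4 e heA'.1 (Or.inr heA'.2),
            hc6 e heA'.2⟩
      rw [hset, Set.ncard_coe_finset]
      have h2 := card_eq_two_mul_card_image A pairOf (by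
        intro e heA
        have heA' : e ∈ dodecads ∧ (d ∩ e).card = 6 := by simpa [A] using heA
        have hfib : A.filter (fun b => pairOf b = pairOf e) = {e, eᶜ} := by
          ext b
          simp only [Finset.mem_filter, Finset.mem_insert, Finset.mem_singleton]
          constructor
          · rintro ⟨-, hb⟩
            exact pairOf_eq_iff.mp hb
          · rintro (rfl | rfl)
            · exact ⟨heA, rfl⟩
            · refine ⟨?_, pairOf_compl e⟩
              have := card_inter_compl_dod (e := e) hd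
              simp only [A, Finset.mem_filter, Finset.mem_univ, true_and]
              exact ⟨dodecad_compl_mem heA'.1, by omega⟩
        rw [hfib, Finset.card_pair (dodecad_ne_compl heA'.1)])
      omega
  · intro y z hy hz hyx hzx hc
    obtain ⟨e, he, rfl, h | h⟩ := hrep y hy hyx <;> obtain ⟨f, hf, rfl, h' | h'⟩ := hrep z hz hzx
    · obtain ⟨g, hg, h1, h2⟩ := dodecad_stab_trans d e f hd he hf (by rw [h.1, h'.1])
      refine ⟨⟨g, hg⟩, ?_, ?_⟩
      · rw [smul_pairOf]; exact congrArg pairOf h1
      · rw [smul_pairOf]; exact congrArg pairOf h2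
    · rw [h.2, h'.2] at hc
      exact absurd hc (by decide)
    · rw [h.2, h'.2] at hc
      exact absurd hc (by decide)
    · obtain ⟨g, hg, h1, h2⟩ := dodecad_stab_trans d e f hd he hf (by rw [h.1, h'.1])
      refine ⟨⟨g, hg⟩, ?_, ?_⟩
      · rw [smul_pairOf]; exact congrArg pairOf h1
      · rw [smul_pairOf]; exact congrArg pairOf h2
  · decide
  · have hpos : {d' : Finset GolayPt | d' ∈ dodecads ∧ (d ∩ d').card = 4}.Nonempty := by
      rw [← Set.ncard_pos (Set.toFinite _), h4]
      norm_num
    obtain ⟨e, he, h⟩ := hpos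
    obtain ⟨g, rfl⟩ := dodecad_trans d e hd he
    exact ⟨g, by rw [smul_pairOf]; exact hne4 _ he (Or.inl h)⟩

end Cfsg.Agent.H33
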