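import Mathlib

/-!
# Multiple transitivity on lists of distinct points (helper33)
-/

set_option autoImplicit false

namespace Cfsg.Agent.H33

open MulAction

/-- In an `n`-pretransitive action, any duplicate-free list of length `n` can be moved to any
other one. -/
theorem exists_smul_list {G α : Type*} [Group G] [MulAction G α] (n : ℕ)
    [IsMultiplyPretransitive G α n] (l₁ l₂ : List α) (h₁ : l₁.Nodup) (h₂ : l₂.Nodup)
    (hl₁ : l₁.length = n) (hl₂ : l₂.length = n) : ∃ g : G, l₁.map (g • ·) = l₂ := by
  let e₁ : Fin n ↪ α := ⟨fun i => l₁.get (i.cast hl₁.symm), fun i j h => by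
    have := (List.nodup_iff_injective_get.mp h₁) h
    simpa [Fin.ext_iff] using this⟩
  let e₂ : Fin n ↪ α := ⟨fun i => l₂.get (i.cast hl₂.symm), fun i j h => by
    have := (List.nodup_iff_injective_get.mp h₂) h
    simpa [Fin.ext_iff] using this⟩
  obtain ⟨g, hg⟩ := exists_smul_eq G e₁ e₂
  refine ⟨g, ?_⟩
  apply List.ext_get (by simp [hl₁, hl₂])
  intro i hi1 hi2
  have hi : i < n := by simpa [hl₁] using hi1
  have := congrArg (fun e : Fin n ↪ α => e ⟨i, hi⟩) hg
  simpa [e₁, e₂, Function.Embedding.smul_apply] using this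

/-- Lowering the degree of transitivity for a finite set with enough points. -/
theorem pretransitive_of_le {G α : Type*} [Group G] [MulAction G α] [Finite α] {m n : ℕ}
    (h : IsMultiplyPretransitive G α n) (hmn : m ≤ n) (hα : n ≤ Nat.card α) :
    IsMultiplyPretransitive G α m :=
  isMultiplyPretransitive_of_le hmn hα

theorem exists_smul_list_le {G α : Type*} [Group G] [MulAction G α] [Finite α] (n : ℕ)
    (h : IsMultiplyPretransitive G α n) (hα : n ≤ Nat.card α) (l₁ l₂ : List α) (h₁ : l₁.Nodup)
    (h₂ : l₂.Nodup) (hl : l₁.length = l₂.length) (hn : l₁.length ≤ n) :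
    ∃ g : G, l₁.map (g • ·) = l₂ := by
  haveI := pretransitive_of_le h hn hα
  exact exists_smul_list l₁.length l₁ l₂ h₁ h₂ rfl hl.symm

end Cfsg.Agent.H33
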