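import Mathlib
import Cfsg.Prelude.Def_SporadicCombinatorics
import Cfsg.Agent.H33.Prim
import Cfsg.Agent.H33.Trans

/-!
# The stabiliser of a pair of points is maximal in `M24`, from 5-fold transitivity (helper33)
-/

set_option autoImplicit false
open scoped Pointwise
open MulAction

namespace Cfsg.Agent.H33

theorem natCard_golayPt : Nat.card Cfsg.GolayPt = 24 := by
  rw [Nat.card_eq_fintype_card]; rfl

theorem m24_smul_pt (g : Cfsg.M24) (a : Cfsg.GolayPt) :
    g • a = (g : Equiv.Perm Cfsg.GolayPt) a := rfl

theorem m24_smul_finset (g : Cfsg.M24) (t : Finset Cfsg.GolayPt) :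
    g • t = t.image (g : Equiv.Perm Cfsg.GolayPt) := rfl

theorem m24_card_smul (g : Cfsg.M24) (t : Finset Cfsg.GolayPt) : (g • t).card = t.card := by
  rw [m24_smul_finset]
  exact Finset.card_image_of_injective _ (g : Equiv.Perm Cfsg.GolayPt).injective

theorem m24_smul_pair (g : Cfsg.M24) (a b : Cfsg.GolayPt) :
    g • ({a, b} : Finset Cfsg.GolayPt) = {g • a, g • b} := by
  rw [m24_smul_finset, Finset.image_insert, Finset.image_singleton]
  rfl

theorem exists_pair_of_mem {α : Type*} [DecidableEq α] {t : Finset α} (ht : t.card = 2) {u : α}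
    (hu : u ∈ t) : ∃ p, p ≠ u ∧ t = {u, p} := by
  obtain ⟨a, b, hab, rfl⟩ := Finset.card_eq_two.mp ht
  rcases Finset.mem_insert.mp hu with h | h
  · subst h
    exact ⟨b, fun h => hab h.symm, rfl⟩
  · rw [Finset.mem_singleton] at h
    subst h
    exact ⟨a, hab, Finset.pair_comm _ _⟩

theorem duad_stabilizer_isCoatom (h5 : IsMultiplyPretransitive Cfsg.M24 Cfsg.GolayPt 5)
    (s : Finset Cfsg.GolayPt) (hs : s.card = 2) : IsCoatom (stabilizer Cfsg.M24 s) := by
  classical
  have h5' : 5 ≤ Nat.card Cfsg.GolayPt := by rw [natCard_golayPt]; norm_num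
  -- the orbit of `s` is the set of all pairs
  have horb : orbit Cfsg.M24 s = {t | t.card = 2} := by
    ext t
    constructor
    · rintro ⟨g, rfl⟩
      show (g • s).card = 2
      rw [m24_card_smul]; exact hs
    · intro ht
      obtain ⟨a, b, hab, rfl⟩ := Finset.card_eq_two.mp hs
      obtain ⟨a', b', hab', rfl⟩ := Finset.card_eq_two.mp ht
      obtain ⟨g, hg⟩ := exists_smul_list_le 5 h5 h5' [a, b] [a', b'] (by simp [hab])
        (by simp [hab']) rfl (by simp)
      simp only [List.map_cons, List.map_nil, List.cons.injEq, and_true] at hg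
      refine ⟨g, ?_⟩
      show g • ({a, b} : Finset Cfsg.GolayPt) = {a', b'}
      rw [m24_smul_pair, hg.1, hg.2]
  let c : Finset Cfsg.GolayPt → Fin 2 := fun t => if Disjoint t s then 0 else 1
  refine isCoatom_stabilizer_of_suborbits (G := Cfsg.M24) s c ![231, 44] ?_ ?_ ?_ ?_
  · -- sizes of the suborbits
    have hcompl : sᶜ.card = 22 := by
      rw [Finset.card_compl, hs]; rfl
    have h0 : {y | y ∈ orbit Cfsg.M24 s ∧ y ≠ s ∧ c y = 0} =
        ((Finset.powersetCard 2 sᶜ : Finset (Finset Cfsg.GolayPt)) : Set (Finset Cfsg.GolayPt)) := by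
      ext y
      simp only [horb, Set.mem_setOf_eq, Finset.mem_coe, Finset.mem_powersetCard, c]
      constructor
      · rintro ⟨hy, -, hc⟩
        have hd : Disjoint y s := by
          by_contra hd
          rw [if_neg hd] at hc
          exact absurd hc (by decide)
        refine ⟨?_, hy⟩
        intro a ha
        rw [Finset.mem_compl]
        exact fun has => Finset.disjoint_left.mp hd ha has
      · rintro ⟨hy, hy2⟩
        have hd : Disjoint y s := by
          rw [Finset.disjoint_left]
          intro a ha has
          have := hy ha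
          rw [Finset.mem_compl] at this
          exact this has
        refine ⟨hy2, ?_, by rw [if_pos hd]⟩
        rintro rfl
        rw [disjoint_self, Finset.bot_eq_empty] at hd
        rw [hd] at hs
        simp at hs
    have hc0 : {y | y ∈ orbit Cfsg.M24 s ∧ y ≠ s ∧ c y = 0}.ncard = 231 := by
      rw [h0, Set.ncard_coe_finset, Finset.card_powersetCard, hcompl]
      rfl
    have h1 : {y | y ∈ orbit Cfsg.M24 s ∧ y ≠ s ∧ c y = 1} =
        (((Finset.powersetCard 2 Finset.univ).filter (fun y => y ≠ s ∧ ¬ Disjoint y s) :
          Finset (Finset Cfsg.GolayPt)) : Set (Finset Cfsg.GolayPt)) := by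
      ext y
      simp only [horb, Set.mem_setOf_eq, Finset.coe_filter, Finset.mem_powersetCard,
        Finset.subset_univ, true_and, c]
      constructor
      · rintro ⟨hy, hne, hc⟩
        refine ⟨hy, hne, ?_⟩
        intro hd
        rw [if_pos hd] at hc
        exact absurd hc (by decide)
      · rintro ⟨hy, hne, hd⟩
        exact ⟨hy, hne, by rw [if_neg hd]⟩
    have hc1 : {y | y ∈ orbit Cfsg.M24 s ∧ y ≠ s ∧ c y = 1}.ncard = 44 := by
      rw [h1, Set.ncard_coe_finset]
      have hsplit := Finset.card_filter_add_card_filter_not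
        (s := (Finset.powersetCard 2 (Finset.univ : Finset Cfsg.GolayPt)))
        (fun y => y ≠ s ∧ ¬ Disjoint y s)
      have hneg : (Finset.powersetCard 2 (Finset.univ : Finset Cfsg.GolayPt)).filter
          (fun y => ¬ (y ≠ s ∧ ¬ Disjoint y s)) = insert s (Finset.powersetCard 2 sᶜ) := by
        ext y
        simp only [Finset.mem_filter, Finset.mem_powersetCard, Finset.subset_univ, true_and,
          Finset.mem_insert]
        constructor
        · rintro ⟨hy, hh⟩
          by_cases hys : y = s
          · exact Or.inl hys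
          · right
            have hd : Disjoint y s := by
              by_contra hd
              exact hh ⟨hys, hd⟩
            refine ⟨?_, hy⟩
            intro a ha
            rw [Finset.mem_compl]
            exact fun has => Finset.disjoint_left.mp hd ha has
        · rintro (rfl | ⟨hy, hy2⟩)
          · exact ⟨hs, fun h => h.1 rfl⟩
          · refine ⟨hy2, fun h => h.2 ?_⟩
            rw [Finset.disjoint_left]
            intro a ha has
            have := hy ha
            rw [Finset.mem_compl] at this
            exact this has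
      have hnotin : s ∉ Finset.powersetCard 2 sᶜ := by
        rw [Finset.mem_powersetCard]
        rintro ⟨hsub, -⟩
        obtain ⟨a, ha⟩ : s.Nonempty := by
          rw [← Finset.card_pos, hs]; norm_num
        have := hsub ha
        rw [Finset.mem_compl] at this
        exact this ha
      rw [hneg, Finset.card_insert_of_notMem hnotin, Finset.card_powersetCard,
        Finset.card_powersetCard, hcompl, Finset.card_univ] at hsplit
      have e1 : Fintype.card Cfsg.GolayPt = 24 := rfl
      have e2 : Nat.choose 24 2 = 276 := by decide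
      have e3 : Nat.choose 22 2 = 231 := by decide
      rw [e1, e2, e3] at hsplit
      omega
    intro i
    fin_cases i
    · exact hc0
    · exact hc1
  · -- transitivity of the stabiliser on each class
    intro y z hy hz hys hzs hc
    rw [horb] at hy hz
    have hy2 : y.card = 2 := hy
    have hz2 : z.card = 2 := hz
    by_cases hdy : Disjoint y s
    · have hdz : Disjoint z s := by
        by_contra hdz
        simp only [c, if_pos hdy, if_neg hdz] at hc
        exact absurd hc (by decide)
      obtain ⟨a, b, hab, rfl⟩ := Finset.card_eq_two.mp hs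
      obtain ⟨p, q, hpq, rfl⟩ := Finset.card_eq_two.mp hy2
      obtain ⟨p', q', hpq', rfl⟩ := Finset.card_eq_two.mp hz2
      simp only [Finset.disjoint_insert_left, Finset.disjoint_singleton_left, Finset.mem_insert,
        Finset.mem_singleton, not_or] at hdy hdz
      obtain ⟨g, hg⟩ := exists_smul_list_le 5 h5 h5' [a, b, p, q] [a, b, p', q']
        (by simp [hab, hpq, Ne.symm hdy.1.1, Ne.symm hdy.1.2, Ne.symm hdy.2.1, Ne.symm hdy.2.2])
        (by simp [hab, hpq', Ne.symm hdz.1.1, Ne.symm hdz.1.2, Ne.symm hdz.2.1, Ne.symm hdz.2.2])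
        rfl (by simp)
      simp only [List.map_cons, List.map_nil, List.cons.injEq, and_true] at hg
      refine ⟨g, ?_, ?_⟩
      · rw [m24_smul_pair, hg.1, hg.2.1]
      · rw [m24_smul_pair, hg.2.2.1, hg.2.2.2]
    · have hdz : ¬ Disjoint z s := by
        intro hdz
        simp only [c, if_neg hdy, if_pos hdz] at hc
        exact absurd hc (by decide)
      -- common points
      rw [Finset.not_disjoint_iff] at hdy hdz
      obtain ⟨u, huy, hus⟩ := hdy
      obtain ⟨u', huz, hus'⟩ := hdz
      obtain ⟨v, hvu, hsv⟩ := exists_pair_of_mem hs hus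
      obtain ⟨v', hvu', hsv'⟩ := exists_pair_of_mem hs hus'
      obtain ⟨p, hpu, hyp⟩ := exists_pair_of_mem hy2 huy
      obtain ⟨p', hpu', hzp⟩ := exists_pair_of_mem hz2 huz
      have hpv : p ≠ v := by
        rintro rfl
        exact hys (hyp.trans hsv.symm)
      have hpv' : p' ≠ v' := by
        rintro rfl
        exact hzs (hzp.trans hsv'.symm)
      obtain ⟨g, hg⟩ := exists_smul_list_le 5 h5 h5' [u, v, p] [u', v', p']
        (by simp [Ne.symm hvu, Ne.symm hpu, Ne.symm hpv])
        (by simp [Ne.symm hvu', Ne.symm hpu', Ne.symm hpv'])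
        rfl (by simp)
      simp only [List.map_cons, List.map_nil, List.cons.injEq, and_true] at hg
      refine ⟨g, ?_, ?_⟩
      · conv_lhs => rw [hsv]
        rw [m24_smul_pair, hg.1, hg.2.1, ← hsv']
      · rw [hyp, m24_smul_pair, hg.1, hg.2.2, ← hzp]
  · decide
  · -- the stabiliser is proper
    obtain ⟨a, b, hab, rfl⟩ := Finset.card_eq_two.mp hs
    obtain ⟨d, hda, hdb⟩ : ∃ d : Cfsg.GolayPt, d ≠ a ∧ d ≠ b := by
      by_contra hcon
      have : (Finset.univ : Finset Cfsg.GolayPt) ⊆ {a, b} := by
        intro d _
        by_cases hda : d = a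
        · simp [hda]
        · by_cases hdb : d = b
          · simp [hdb]
          · exact absurd ⟨d, hda, hdb⟩ hcon
      have := Finset.card_le_card this
      rw [Finset.card_univ, hs] at this
      exact absurd this (by decide)
    have hmem : ({a, d} : Finset Cfsg.GolayPt) ∈ orbit Cfsg.M24 ({a, b} : Finset Cfsg.GolayPt) := by
      rw [horb]
      exact Finset.card_pair (Ne.symm hda)
    obtain ⟨g, hg⟩ := hmem
    have hg' : g • ({a, b} : Finset Cfsg.GolayPt) = {a, d} := hg
    refine ⟨g, ?_⟩
    rw [hg']
    intro h
    have : d ∈ ({a, b} : Finset Cfsg.GolayPt) := by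
      rw [← h]; simp
    simp [hda, hdb] at this

end Cfsg.Agent.H33
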