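import Cfsg.Agent.H33.IdxOdd

/-!
# Subgroups of index 759 and 253 of `M24`
-/

set_option autoImplicit false
set_option linter.unusedSectionVars false

namespace Cfsg.Agent.H33.Idx

open Cfsg Cfsg.Agent.H9 MulAction
open scoped Pointwise

theorem exists_not_mem_octad {O : Finset GolayPt} (hO : O ∈ octads) : ∃ y, y ∉ O := by
  by_contra hcon
  simp only [not_exists, not_not] at hcon
  have h := Finset.eq_univ_iff_forall.mpr hcon
  have h2 := hO.2
  rw [h, Finset.card_univ, fcard_pt] at h2
  omega

theorem exists_mem_octad {O : Finset GolayPt} (hO : O ∈ octads) : ∃ α, α ∈ O := by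
  apply Finset.card_pos.mp
  rw [hO.2]
  norm_num

theorem K_le_ptS {H : Subgroup M24} {O : Finset GolayPt}
    (hK : fixingSubgroup M24 (O : Set GolayPt) ≤ H) {α : GolayPt} (hα : α ∈ O) :
    fixingSubgroup M24 (O : Set GolayPt) ≤ ptS H α :=
  fun k hk => mem_ptS.mpr ⟨hK hk, (mem_fixingSubgroup_iff M24).mp hk α (Finset.mem_coe.mpr hα)⟩

/-- a subgroup of order `322560` or `967680` containing the pointwise stabiliser of an octad
is not transitive -/
theorem odd_trans_false {H : Subgroup M24} (htr : ∀ y z : GolayPt, ∃ h ∈ H, h • y = z)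
    {O : Finset GolayPt} (hO : O ∈ octads) (hK : fixingSubgroup M24 (O : Set GolayPt) ≤ H)
    (hc : Nat.card H = 322560 ∨ Nat.card H = 967680) : False := by
  obtain ⟨α, hα⟩ := exists_mem_octad hO
  obtain ⟨y, hy⟩ := exists_not_mem_octad hO
  have hyα : y ≠ α := fun h => hy (h ▸ hα)
  have hcV := card_of_trans htr α
  rw [fcard_pt] at hcV
  have hKV := K_le_ptS hK hα
  rcases orbF_eq_compl_or hO hKV hy with hinv | h20
  · have := trio_bound htr hO hK hα hinv
    omega
  · have hαΘ : α ∉ orbF (ptS H α) y := not_mem_orbF_ptS hyα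
    have hn23 : (orbF (ptS H α) y).card ≤ 23 := by
      have h1 : orbF (ptS H α) y ⊆ Finset.univ.erase α := by
        intro z hz
        rw [Finset.mem_erase]
        exact ⟨fun hcon => hαΘ (hcon ▸ hz), Finset.mem_univ _⟩
      have h2 := Finset.card_le_card h1
      rwa [Finset.card_erase_of_mem (Finset.mem_univ _), Finset.card_univ, fcard_pt] at h2
    have hdvd := Nat.mod_eq_zero_of_dvd (orbF_card_dvd (ptS H α) y)
    have hinvΘ := inv_compl (H := ptS H α) (A := orbF (ptS H α) y)
      (fun h hh a ha => smul_mem_orbF hh ha)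
    have hn : (orbF (ptS H α) y).card = 20 ∨ (orbF (ptS H α) y).card = 21 := by
      generalize (orbF (ptS H α) y).card = n at *
      rcases hc with hc | hc
      · have : Nat.card (ptS H α) = 13440 := by omega
        rw [this] at hdvd
        interval_cases n <;> omega
      · have : Nat.card (ptS H α) = 40320 := by omega
        rw [this] at hdvd
        interval_cases n <;> omega
    rcases hn with hn | hn
    · have h1 := card_le_of_inv_erase (ptS_fixes H α) hinvΘ
      have h2 : ((orbF (ptS H α) y)ᶜ).card = 4 := by rw [card_compl', hn]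
      rw [Finset.card_erase_of_mem (Finset.mem_compl.mpr hαΘ), h2, card_fix4 h2] at h1
      have hf : Nat.factorial (4 - 1) = 6 := rfl
      rw [hf] at h1
      omega
    · have h1 := Bm_eq_compl (H := H) (α := α) (y := y) (m := 2) (by norm_num)
        (by rw [card_compl', hn]) (by rw [hn]; norm_num) hyα
      have h2 : (Bm H 2 α).card = 3 := by rw [h1, card_compl', hn]
      exact block3_false htr (by omega) (by rcases hc with hc | hc <;> rw [hc] <;> norm_num) h2

/-- a subgroup of order `322560` or `967680` containing the pointwise stabiliser of an octad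
`O` preserves `O` -/
theorem odd_inv {H : Subgroup M24} {O : Finset GolayPt} (hO : O ∈ octads)
    (hK : fixingSubgroup M24 (O : Set GolayPt) ≤ H)
    (hc : Nat.card H = 322560 ∨ Nat.card H = 967680) : ∀ v ∈ H, ∀ a ∈ O, v • a ∈ O := by
  obtain ⟨y, hy⟩ := exists_not_mem_octad hO
  rcases orbF_eq_compl_or hO hK hy with hinv | h20
  · exact hinv
  · exfalso
    have hdvd := Nat.mod_eq_zero_of_dvd (orbF_card_dvd H y)
    have hn24 := card_le_24 (orbF H y)
    have hinvΘ := inv_compl (H := H) (A := orbF H y) (fun h hh a ha => smul_mem_orbF hh ha)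
    have hn : (orbF H y).card = 20 ∨ (orbF H y).card = 21 ∨ (orbF H y).card = 24 := by
      generalize (orbF H y).card = n at *
      rcases hc with hc | hc
      · rw [hc] at hdvd
        interval_cases n <;> omega
      · rw [hc] at hdvd
        interval_cases n <;> omega
    rcases hn with hn | hn | hn
    · have h1 := card_le_of_inv hinvΘ
      have h2 : ((orbF H y)ᶜ).card = 4 := by rw [card_compl', hn]
      rw [h2, card_fix4 h2] at h1
      have hf : Nat.factorial 4 = 24 := rfl
      rw [hf] at h1
      omega
    · have h1 := card_le_of_inv hinvΘ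
      have h2 : ((orbF H y)ᶜ).card = 3 := by rw [card_compl', hn]
      rw [h2, card_fix3 h2] at h1
      have hf : Nat.factorial 3 = 6 := rfl
      rw [hf] at h1
      omega
    · have htr := trans_of_orbF_univ (H := H) (x := y) (Finset.eq_univ_of_card _ (by
        rw [hn, fcard_pt]))
      exact odd_trans_false htr hO hK hc

theorem index_759 (H : Subgroup M24) (hidx : H.index = 759) :
    ∃ o ∈ octads, H = MulAction.stabilizer M24 o := by
  have hcard : Nat.card H = 322560 := by
    have := card_of_index hidx
    omega
  obtain ⟨O, hO, hK⟩ := exists_K_le H (by rw [hidx]; norm_num)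
  have hinv := odd_inv hO hK (Or.inl hcard)
  refine ⟨O, hO, ?_⟩
  apply Subgroup.eq_of_le_of_card_ge
  · intro h hh
    rw [MulAction.mem_stabilizer_iff]
    exact smul_finset_eq (hinv h hh)
  · rw [card_stab_octad' hO, hcard]

theorem index_253 (H : Subgroup M24) : H.index ≠ 253 := by
  intro hidx
  have hcard : Nat.card H = 967680 := by
    have := card_of_index hidx
    omega
  obtain ⟨O, hO, hK⟩ := exists_K_le H (by rw [hidx]; norm_num)
  have hinv := odd_inv hO hK (Or.inr hcard)
  have hle : H ≤ MulAction.stabilizer M24 O := by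
    intro h hh
    rw [MulAction.mem_stabilizer_iff]
    exact smul_finset_eq (hinv h hh)
  have := Subgroup.card_le_of_le hle
  rw [card_stab_octad' hO, hcard] at this
  omega

end Cfsg.Agent.H33.Idx
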