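import Cfsg.Agent.H33.IdxM24

/-!
# Subgroups of index 276 of `M24` are the stabilisers of the pairs of points
-/

set_option autoImplicit false
set_option linter.unusedSectionVars false

namespace Cfsg.Agent.H33.Idx

open Cfsg Cfsg.Agent.H9 MulAction
open scoped Pointwise

/-- the order of a subgroup of given index -/
theorem card_of_index {H : Subgroup M24} {n : ℕ} (h : H.index = n) :
    Nat.card H * n = 244823040 := by
  rw [← h, Subgroup.card_mul_index, card_M24]

/-- fixed points of an element of prime order on an orbit -/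
theorem orbF_mod {V : Subgroup M24} {f : M24} (hf : f ∈ V) {p : ℕ} [Fact p.Prime]
    (hfp : orderOf f = p) (x : GolayPt) :
    (orbF V x ∩ fixF f).card ≡ (orbF V x).card [MOD p] :=
  fix_mod (by rw [← hfp]; exact pow_orderOf_eq_one f) (fun _ ha => smul_mem_orbF hf ha)

theorem inter_fix_le {A : Finset GolayPt} (f : M24) :
    (A ∩ fixF f).card ≤ (fixF f : Finset GolayPt).card :=
  Finset.card_le_card Finset.inter_subset_right

theorem inter_fix_lt {A : Finset GolayPt} {f : M24} {x : GolayPt} (hx : x ∈ fixF f) (hxA : x ∉ A) :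
    (A ∩ fixF f).card < (fixF f : Finset GolayPt).card := by
  apply Finset.card_lt_card
  rw [Finset.ssubset_iff_of_subset Finset.inter_subset_right]
  exact ⟨x, hx, fun hcon => hxA (Finset.mem_inter.mp hcon).1⟩

theorem inter_fix_lt' {A : Finset GolayPt} {f : M24} {x : GolayPt} (hx : x ∈ A) (hxf : x ∉ fixF f) :
    (A ∩ fixF f).card < A.card := by
  apply Finset.card_lt_card
  rw [Finset.ssubset_iff_of_subset Finset.inter_subset_left]
  exact ⟨x, hx, fun hcon => hxf (Finset.mem_inter.mp hcon).2⟩

theorem exists_not_fix {f : M24} (hf : (fixF f : Finset GolayPt).card < 24) :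
    ∃ x : GolayPt, x ∉ fixF f := by
  by_contra hcon
  simp only [not_exists, not_not] at hcon
  have : (fixF f : Finset GolayPt) = Finset.univ := Finset.eq_univ_iff_forall.mpr hcon
  rw [this, Finset.card_univ, fcard_pt] at hf
  omega

theorem index_276 (H : Subgroup M24) (hidx : H.index = 276) :
    ∃ s : Finset GolayPt, s.card = 2 ∧ H = MulAction.stabilizer M24 s := by
  haveI : Fact (Nat.Prime 11) := ⟨by norm_num⟩
  haveI : Fact (Nat.Prime 7) := ⟨by norm_num⟩
  have hcard : Nat.card H = 887040 := by
    have := card_of_index hidx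
    omega
  obtain ⟨t, ht, hto⟩ := exists_orderOf_eq H 11 (by rw [hcard]; norm_num)
  obtain ⟨s, hs, hso⟩ := exists_orderOf_eq H 7 (by rw [hcard]; norm_num)
  have ht2 := fixF_card_eleven hto
  have hs3 := fixF_card_seven hso
  obtain ⟨x, hx⟩ := exists_not_fix (f := t) (by rw [ht2]; norm_num)
  have h11 := orbF_mod ht hto x
  have h7 := orbF_mod hs hso x
  have ha := inter_fix_le (A := orbF H x) t
  have hb := inter_fix_le (A := orbF H x) s
  have hlt := inter_fix_lt' (self_mem_orbF H x) hx
  have hdvd := Nat.mod_eq_zero_of_dvd (orbF_card_dvd H x)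
  have hn24 : (orbF H x).card ≤ 24 := by
    rw [← fcard_pt]; exact Finset.card_le_univ _
  rw [hcard] at hdvd
  rw [ht2] at ha
  rw [hs3] at hb
  unfold Nat.ModEq at h11 h7
  have hn : (orbF H x).card = 22 ∨ (orbF H x).card = 24 := by
    generalize (orbF H x).card = n at *
    generalize (orbF H x ∩ fixF t).card = a at *
    generalize (orbF H x ∩ fixF s).card = b at *
    interval_cases n <;> omega
  rcases hn with hn | hn
  · -- the complement of the orbit is a pair
    refine ⟨(orbF H x)ᶜ, by rw [Finset.card_compl, fcard_pt, hn], ?_⟩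
    have hinv := inv_compl (H := H) (A := orbF H x) (fun h hh a ha => smul_mem_orbF hh ha)
    have hle : H ≤ MulAction.stabilizer M24 ((orbF H x)ᶜ : Finset GolayPt) := by
      intro h hh
      rw [MulAction.mem_stabilizer_iff]
      exact smul_finset_eq (hinv h hh)
    apply Subgroup.eq_of_le_of_card_ge hle
    have h1 := card_le_factorial_mul 2 ((orbF H x)ᶜ : Finset GolayPt)
      (MulAction.stabilizer M24 ((orbF H x)ᶜ : Finset GolayPt))
      (by rw [Finset.card_compl, fcard_pt, hn])
      (fun h hh a ha => mem_of_smul_finset_eq (MulAction.mem_stabilizer_iff.mp hh) ha)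
    have h2 : Nat.card (MulAction.stabilizer M24 ((orbF H x)ᶜ : Finset GolayPt) ⊓
        fixingSubgroup M24 (((orbF H x)ᶜ : Finset GolayPt) : Set GolayPt) : Subgroup M24)
        ≤ 443520 := by
      rw [← card_fix2 (A := (orbF H x)ᶜ) (by rw [Finset.card_compl, fcard_pt, hn])]
      exact Subgroup.card_le_of_le inf_le_right
    rw [hcard]
    have : Nat.factorial 2 = 2 := rfl
    rw [this] at h1
    omega
  · -- the transitive case
    exfalso
    have htr := trans_of_orbF_univ (H := H) (x := x) (Finset.eq_univ_of_card _ (by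
      rw [hn, fcard_pt]))
    have hcα := card_of_trans htr x
    rw [hcard, fcard_pt] at hcα
    have hcα' : Nat.card (ptS H x) = 36960 := by omega
    obtain ⟨t', ht', hto'⟩ := exists_orderOf_eq (ptS H x) 11 (by rw [hcα']; norm_num)
    obtain ⟨s', hs', hso'⟩ := exists_orderOf_eq (ptS H x) 7 (by rw [hcα']; norm_num)
    have ht2' := fixF_card_eleven hto'
    have hs3' := fixF_card_seven hso'
    have hxt : x ∈ fixF t' := mem_fixF.mpr (mem_ptS.mp ht').2
    have hxs : x ∈ fixF s' := mem_fixF.mpr (mem_ptS.mp hs').2
    obtain ⟨y, hy⟩ := exists_not_fix (f := t') (by rw [ht2']; norm_num)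
    have hyx : y ≠ x := fun hcon => hy (hcon ▸ hxt)
    have hxΘ : x ∉ orbF (ptS H x) y := not_mem_orbF_ptS hyx
    have h11' := orbF_mod ht' hto' y
    have h7' := orbF_mod hs' hso' y
    have ha' := inter_fix_lt hxt hxΘ
    have hb' := inter_fix_lt hxs hxΘ
    have hlt' := inter_fix_lt' (self_mem_orbF (ptS H x) y) hy
    have hdvd' := Nat.mod_eq_zero_of_dvd (orbF_card_dvd (ptS H x) y)
    have hn23 : (orbF (ptS H x) y).card ≤ 23 := by
      have h1 : orbF (ptS H x) y ⊆ Finset.univ.erase x := by
        intro z hz
        rw [Finset.mem_erase]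
        exact ⟨fun hcon => hxΘ (hcon ▸ hz), Finset.mem_univ _⟩
      have h2 := Finset.card_le_card h1
      rwa [Finset.card_erase_of_mem (Finset.mem_univ _), Finset.card_univ, fcard_pt] at h2
    rw [hcα'] at hdvd'
    rw [ht2'] at ha'
    rw [hs3'] at hb'
    unfold Nat.ModEq at h11' h7'
    have hn' : (orbF (ptS H x) y).card = 22 := by
      generalize (orbF (ptS H x) y).card = n at *
      generalize (orbF (ptS H x) y ∩ fixF t').card = a at *
      generalize (orbF (ptS H x) y ∩ fixF s').card = b at *
      interval_cases n <;> omega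
    -- the fixed points of the stabiliser of `x`
    have hB2 : (Bm H 1 x).card = 2 := by
      have hinvΘ := inv_compl (H := ptS H x) (A := orbF (ptS H x) y)
        (fun h hh a ha => smul_mem_orbF hh ha)
      have hinvΘ' := inv_erase hinvΘ (ptS_fixes H x)
      have h1 : Bm H 1 x = (orbF (ptS H x) y)ᶜ := by
        ext z
        rw [mem_Bm, Finset.mem_compl]
        constructor
        · intro hz hcon
          rw [orbF_eq_of_mem hcon, hn'] at hz
          omega
        · intro hz
          by_cases hzx : z = x
          · rw [hzx, orbF_ptS_self, Finset.card_singleton]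
          · have h2 : orbF (ptS H x) z ⊆ ((orbF (ptS H x) y)ᶜ).erase x :=
              orbF_subset hinvΘ' (Finset.mem_erase.mpr ⟨hzx, Finset.mem_compl.mpr hz⟩)
            have h3 := Finset.card_le_card h2
            rw [Finset.card_erase_of_mem (Finset.mem_compl.mpr hxΘ), Finset.card_compl,
              fcard_pt, hn'] at h3
            exact h3
      rw [h1, Finset.card_compl, fcard_pt, hn']
    have hdiv := block_dvd (H := H) (m := 1) (c := 2) le_rfl
      (fun a b hb => Bm_one_eq htr hb)
      (fun a => by rw [Bm_card_of_trans htr 1 x a, hB2]) hs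
      (p := 7) (by rw [← hso]; exact pow_orderOf_eq_one s) (by norm_num)
    rw [hs3] at hdiv
    omega

end Cfsg.Agent.H33.Idx
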