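import Mathlib

/-!
# Generic tools for the analysis of subgroups of a permutation group by their orbits
(used for the subgroups of `M24` of index 759, 276, 1771, 253)
-/

set_option autoImplicit false
set_option linter.unusedSectionVars false

namespace Cfsg.Agent.H33.Idx

open MulAction
open scoped Pointwise

variable {G : Type*} [Group G] {Ω : Type*} [MulAction G Ω]

/-- the stabiliser of the point `x` in the subgroup `H` -/
def ptS (H : Subgroup G) (x : Ω) : Subgroup G := H ⊓ stabilizer G x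

theorem mem_ptS {H : Subgroup G} {x : Ω} {g : G} : g ∈ ptS H x ↔ g ∈ H ∧ g • x = x := by
  unfold ptS
  rw [Subgroup.mem_inf, mem_stabilizer_iff]

theorem ptS_le (H : Subgroup G) (x : Ω) : ptS H x ≤ H := inf_le_left

theorem ptS_mono {H H' : Subgroup G} (h : H' ≤ H) (x : Ω) : ptS H' x ≤ ptS H x :=
  inf_le_inf_right _ h

variable [Fintype Ω] [DecidableEq Ω]

open Classical in
/-- the orbit of `x` under the subgroup `H`, as a finset -/
noncomputable def orbF (H : Subgroup G) (x : Ω) : Finset Ω :=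
  Finset.univ.filter (fun y => ∃ h ∈ H, h • x = y)

theorem mem_orbF {H : Subgroup G} {x y : Ω} : y ∈ orbF H x ↔ ∃ h ∈ H, h • x = y := by
  unfold orbF
  simp

theorem self_mem_orbF (H : Subgroup G) (x : Ω) : x ∈ orbF H x :=
  mem_orbF.mpr ⟨1, one_mem H, one_smul G x⟩

theorem smul_mem_orbF {H : Subgroup G} {x y : Ω} {h : G} (hh : h ∈ H) (hy : y ∈ orbF H x) :
    h • y ∈ orbF H x := by
  obtain ⟨k, hk, rfl⟩ := mem_orbF.mp hy
  exact mem_orbF.mpr ⟨h * k, mul_mem hh hk, mul_smul h k x⟩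

theorem orbF_mono {H H' : Subgroup G} (h : H' ≤ H) (x : Ω) : orbF H' x ⊆ orbF H x := by
  intro y hy
  obtain ⟨k, hk, rfl⟩ := mem_orbF.mp hy
  exact mem_orbF.mpr ⟨k, h hk, rfl⟩

/-- an invariant set containing `x` contains the orbit of `x` -/
theorem orbF_subset {H : Subgroup G} {A : Finset Ω} (hA : ∀ h ∈ H, ∀ a ∈ A, h • a ∈ A) {x : Ω}
    (hx : x ∈ A) : orbF H x ⊆ A := by
  intro y hy
  obtain ⟨k, hk, rfl⟩ := mem_orbF.mp hy
  exact hA k hk x hx

/-- the complement of an invariant set is invariant -/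
theorem inv_compl {H : Subgroup G} {A : Finset Ω} (hA : ∀ h ∈ H, ∀ a ∈ A, h • a ∈ A) :
    ∀ h ∈ H, ∀ a ∈ Aᶜ, h • a ∈ Aᶜ := by
  intro h hh a ha
  rw [Finset.mem_compl] at ha ⊢
  intro hcon
  apply ha
  have := hA h⁻¹ (inv_mem hh) _ hcon
  rwa [inv_smul_smul] at this

theorem orbF_eq_of_mem {H : Subgroup G} {x y : Ω} (hy : y ∈ orbF H x) : orbF H y = orbF H x := by
  obtain ⟨k, hk, rfl⟩ := mem_orbF.mp hy
  apply Finset.Subset.antisymm
  · exact orbF_subset (fun h hh a ha => smul_mem_orbF hh ha) (smul_mem_orbF hk (self_mem_orbF H x))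
  · apply orbF_subset (fun h hh a ha => smul_mem_orbF hh ha)
    have := smul_mem_orbF (inv_mem hk) (self_mem_orbF H (k • x))
    rwa [inv_smul_smul] at this

/-- an invariant subset is mapped onto itself -/
theorem smul_finset_eq {A : Finset Ω} {g : G} (hA : ∀ a ∈ A, g • a ∈ A) : g • A = A := by
  apply Finset.eq_of_subset_of_card_le
  · intro y hy
    obtain ⟨a, ha, rfl⟩ := Finset.mem_smul_finset.mp hy
    exact hA a ha
  · rw [Finset.card_smul_finset]

theorem mem_of_smul_finset_eq {A : Finset Ω} {g : G} (hA : g • A = A) {a : Ω} (ha : a ∈ A) :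
    g • a ∈ A := by
  rw [← hA]
  exact Finset.smul_mem_smul_finset ha

/-- orbit-stabiliser -/
theorem card_eq_orbF_mul (H : Subgroup G) (x : Ω) :
    Nat.card H = (orbF H x).card * Nat.card (ptS H x) := by
  have h1 : Nat.card H
      = Nat.card (MulAction.orbit H x) * Nat.card (MulAction.stabilizer H x) := by
    rw [← Nat.card_prod]
    exact Nat.card_congr (MulAction.orbitProdStabilizerEquivGroup H x).symm
  have h2 : MulAction.orbit H x = ((orbF H x : Finset Ω) : Set Ω) := by
    ext y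
    rw [Finset.mem_coe, mem_orbF]
    constructor
    · rintro ⟨h, rfl⟩
      exact ⟨h, h.2, rfl⟩
    · rintro ⟨h, hh, rfl⟩
      exact ⟨⟨h, hh⟩, rfl⟩
  have h3 : (MulAction.stabilizer H x).map H.subtype = ptS H x := by
    ext g
    rw [Subgroup.mem_map, mem_ptS]
    constructor
    · rintro ⟨h, hh, rfl⟩
      exact ⟨h.2, hh⟩
    · rintro ⟨hg, hg'⟩
      exact ⟨⟨g, hg⟩, hg', rfl⟩
  have h4 : Nat.card (MulAction.stabilizer H x) = Nat.card (ptS H x) := by
    rw [← h3]
    exact Nat.card_congr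
      ((MulAction.stabilizer H x).equivMapOfInjective H.subtype H.subtype_injective).toEquiv
  rw [h1, h4, h2, Nat.card_coe_set_eq, Set.ncard_coe_finset]

theorem orbF_card_dvd [Finite G] (H : Subgroup G) (x : Ω) : (orbF H x).card ∣ Nat.card H :=
  Dvd.intro _ (card_eq_orbF_mul H x).symm

/-- the fixed points of `g` -/
def fixF (g : G) : Finset Ω := Finset.univ.filter (fun a => g • a = a)

theorem mem_fixF {g : G} {a : Ω} : a ∈ fixF g ↔ g • a = a := by
  unfold fixF
  simp

/-- the number of fixed points of an element of order `p` on an invariant set -/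
theorem fix_mod {g : G} {p : ℕ} [hp : Fact p.Prime] (hg : g ^ p = 1) {A : Finset Ω}
    (hA : ∀ a ∈ A, g • a ∈ A) :
    (A ∩ fixF g).card ≡ A.card [MOD p] := by
  have key : ∀ m : ℕ, ∀ a ∈ A, g ^ m • a ∈ A := by
    intro m
    induction m with
    | zero => intro a ha; simpa using ha
    | succ m ih => intro a ha; rw [pow_succ, mul_smul]; exact ih _ (hA a ha)
  have hiff : ∀ x, (MulAction.toPerm g : Equiv.Perm Ω) x ∈ A ↔ x ∈ A := by
    intro x
    constructor
    · intro hx
      have h1 := key (p - 1) _ hx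
      rw [MulAction.toPerm_apply, ← mul_smul, pow_sub_one_mul hp.out.ne_zero, hg, one_smul] at h1
      exact h1
    · intro hx
      exact hA x hx
  have hpow : ∀ m : ℕ, ∀ y : Ω, ((MulAction.toPerm g : Equiv.Perm Ω) ^ m) y = g ^ m • y := by
    intro m
    induction m with
    | zero => intro y; simp
    | succ m ih => intro y; rw [pow_succ, Equiv.Perm.mul_apply, ih, MulAction.toPerm_apply,
        pow_succ, mul_smul]
  let σ : Equiv.Perm {x // x ∈ A} := (MulAction.toPerm g : Equiv.Perm Ω).subtypePerm hiff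
  let ρ : Equiv.Perm Ω := Equiv.Perm.ofSubtype σ
  have hσ : σ ^ p ^ 1 = 1 := by
    rw [pow_one]
    ext ⟨x, hx⟩
    simp only [σ, Equiv.Perm.subtypePerm_pow, Equiv.Perm.subtypePerm_apply, Equiv.Perm.coe_one,
      id_eq]
    rw [hpow, hg, one_smul]
  have hρ : ρ ^ p ^ 1 = 1 := by
    simp only [ρ]
    rw [← map_pow, hσ, map_one]
  have h1 := Equiv.Perm.card_compl_support_modEq hρ
  have h2 : ρ.supportᶜ = (A ∩ fixF g) ∪ Aᶜ := by
    ext x
    simp only [Finset.mem_compl, Equiv.Perm.mem_support, not_not, Finset.mem_union,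
      Finset.mem_inter, mem_fixF]
    by_cases hx : x ∈ A
    · have : ρ x = g • x := by
        simp only [ρ]
        rw [Equiv.Perm.ofSubtype_apply_of_mem σ hx]
        rfl
      rw [this]
      constructor
      · intro h; exact Or.inl ⟨hx, h⟩
      · rintro (h | h)
        · exact h.2
        · exact absurd hx h
    · have : ρ x = x := Equiv.Perm.ofSubtype_apply_of_not_mem σ hx
      rw [this]
      simp [hx]
  have h3 : (A ∩ fixF g ∪ Aᶜ).card = (A ∩ fixF g).card + Aᶜ.card := by
    apply Finset.card_union_of_disjoint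
    rw [Finset.disjoint_left]
    intro x hx hx'
    exact (Finset.mem_compl.mp hx') (Finset.mem_inter.mp hx).1
  rw [h2, h3] at h1
  have h4 : A.card + Aᶜ.card = Fintype.card Ω := by
    rw [Finset.card_compl]
    have := Finset.card_le_univ A
    omega
  rw [← h4] at h1
  exact Nat.ModEq.add_right_cancel' _ h1

/-- a subgroup preserving a set of `n` points has order at most `n!` times that of the pointwise
stabiliser -/
theorem card_le_factorial_mul [Finite G] : ∀ (n : ℕ) (R : Finset Ω) (H : Subgroup G),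
    R.card = n → (∀ h ∈ H, ∀ a ∈ R, h • a ∈ R) →
    Nat.card H ≤ n.factorial * Nat.card (H ⊓ fixingSubgroup G (R : Set Ω) : Subgroup G) := by
  intro n
  induction n with
  | zero =>
    intro R H hR _
    rw [Finset.card_eq_zero] at hR
    subst hR
    have : H ⊓ fixingSubgroup G ((∅ : Finset Ω) : Set Ω) = H := by
      ext g
      simp [mem_fixingSubgroup_iff]
    rw [this]
    simp
  | succ n ih =>
    intro R H hR hinv
    obtain ⟨a, ha⟩ : R.Nonempty := by
      rw [← Finset.card_pos, hR]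
      omega
    have h1 := card_eq_orbF_mul H a
    have h2 : (orbF H a).card ≤ n + 1 := by
      rw [← hR]
      exact Finset.card_le_card (orbF_subset hinv ha)
    have h3 := ih (R.erase a) (ptS H a) (by rw [Finset.card_erase_of_mem ha, hR]; rfl) (by
      intro h hh b hb
      rw [Finset.mem_erase] at hb ⊢
      obtain ⟨hh1, hh2⟩ := mem_ptS.mp hh
      refine ⟨fun hcon => hb.1 ?_, hinv h hh1 b hb.2⟩
      have h5 : h • b = h • a := by rw [hcon, hh2]
      exact MulAction.injective h h5)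
    have h4 : Nat.card (ptS H a ⊓ fixingSubgroup G ((R.erase a : Finset Ω) : Set Ω) : Subgroup G)
        ≤ Nat.card (H ⊓ fixingSubgroup G (R : Set Ω) : Subgroup G) := by
      apply Subgroup.card_le_of_le
      intro g hg
      rw [Subgroup.mem_inf, mem_fixingSubgroup_iff] at hg ⊢
      obtain ⟨hg1, hg2⟩ := hg
      obtain ⟨hg3, hg4⟩ := mem_ptS.mp hg1
      refine ⟨hg3, fun y hy => ?_⟩
      by_cases hya : y = a
      · rw [hya]
        exact hg4
      · exact hg2 y (by
          rw [Finset.mem_coe, Finset.mem_erase]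
          exact ⟨hya, Finset.mem_coe.mp hy⟩)
    calc Nat.card H = (orbF H a).card * Nat.card (ptS H a) := h1
      _ ≤ (n + 1) * (n.factorial * Nat.card (H ⊓ fixingSubgroup G (R : Set Ω) : Subgroup G)) :=
        Nat.mul_le_mul h2 (h3.trans (Nat.mul_le_mul_left _ h4))
      _ = (n + 1).factorial * Nat.card (H ⊓ fixingSubgroup G (R : Set Ω) : Subgroup G) := by
        rw [Nat.factorial_succ, mul_assoc]

omit [MulAction G Ω] [Fintype Ω] [DecidableEq Ω] in
/-- a `p`-subgroup has a conjugate inside any subgroup of index prime to `p` -/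
theorem exists_conj_le {p : ℕ} [Fact p.Prime] (H K : Subgroup G) (hH : ¬ p ∣ H.index)
    (hK : IsPGroup p K) : ∃ g : G, ∀ k ∈ K, g⁻¹ * k * g ∈ H := by
  obtain ⟨q, hq⟩ := hK.nonempty_fixed_point_of_prime_not_dvd_card (G ⧸ H) (by
    rwa [Subgroup.index] at hH)
  induction q using QuotientGroup.induction_on with
  | H g =>
    refine ⟨g, fun k hk => ?_⟩
    have h1 : (⟨k, hk⟩ : K) • (g : G ⧸ H) = (g : G ⧸ H) := hq ⟨k, hk⟩
    have h2 : ((k * g : G) : G ⧸ H) = (g : G ⧸ H) := h1
    rw [QuotientGroup.eq] at h2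
    have h3 := inv_mem h2
    have h4 : ((k * g)⁻¹ * g)⁻¹ = g⁻¹ * k * g := by group
    rwa [h4] at h3

omit [MulAction G Ω] [Fintype Ω] [DecidableEq Ω] in
theorem exists_orderOf_eq [Finite G] (H : Subgroup G) (p : ℕ) [Fact p.Prime]
    (hp : p ∣ Nat.card H) : ∃ g ∈ H, orderOf g = p := by
  obtain ⟨x, hx⟩ := exists_prime_orderOf_dvd_card' p hp
  exact ⟨x, x.2, by rw [← hx, Subgroup.orderOf_coe]⟩

/-! ### Blocks from small orbits of point stabilisers -/

open Classical in
/-- the points whose orbit under the stabiliser of `x` in `H` has at most `m` points -/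
noncomputable def Bm (H : Subgroup G) (m : ℕ) (x : Ω) : Finset Ω :=
  Finset.univ.filter (fun y => (orbF (ptS H x) y).card ≤ m)

theorem mem_Bm {H : Subgroup G} {m : ℕ} {x y : Ω} :
    y ∈ Bm H m x ↔ (orbF (ptS H x) y).card ≤ m := by
  unfold Bm
  simp

theorem orbF_ptS_self (H : Subgroup G) (x : Ω) : orbF (ptS H x) x = {x} := by
  ext y
  rw [mem_orbF, Finset.mem_singleton]
  constructor
  · rintro ⟨h, hh, rfl⟩
    exact (mem_ptS.mp hh).2
  · rintro rfl
    exact ⟨1, one_mem _, one_smul _ _⟩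

theorem self_mem_Bm (H : Subgroup G) {m : ℕ} (hm : 1 ≤ m) (x : Ω) : x ∈ Bm H m x := by
  rw [mem_Bm, orbF_ptS_self, Finset.card_singleton]
  exact hm

theorem orbF_ptS_smul {H : Subgroup G} {h : G} (hh : h ∈ H) (x y : Ω) :
    orbF (ptS H (h • x)) (h • y) = h • orbF (ptS H x) y := by
  ext z
  rw [mem_orbF, Finset.mem_smul_finset]
  constructor
  · rintro ⟨k, hk, rfl⟩
    obtain ⟨hk1, hk2⟩ := mem_ptS.mp hk
    refine ⟨(h⁻¹ * k * h) • y, mem_orbF.mpr ⟨h⁻¹ * k * h, mem_ptS.mpr ⟨?_, ?_⟩, rfl⟩, ?_⟩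
    · exact mul_mem (mul_mem (inv_mem hh) hk1) hh
    · rw [mul_smul, mul_smul, hk2, inv_smul_smul]
    · rw [mul_smul, mul_smul, smul_inv_smul]
  · rintro ⟨w, hw, rfl⟩
    obtain ⟨k, hk, rfl⟩ := mem_orbF.mp hw
    obtain ⟨hk1, hk2⟩ := mem_ptS.mp hk
    refine ⟨h * k * h⁻¹, mem_ptS.mpr ⟨mul_mem (mul_mem hh hk1) (inv_mem hh), ?_⟩, ?_⟩
    · rw [mul_smul, mul_smul, inv_smul_smul, hk2]
    · rw [mul_smul, mul_smul, inv_smul_smul]

theorem smul_mem_Bm {H : Subgroup G} {m : ℕ} {h : G} (hh : h ∈ H) {x y : Ω}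
    (hy : y ∈ Bm H m x) : h • y ∈ Bm H m (h • x) := by
  rw [mem_Bm] at hy ⊢
  rw [orbF_ptS_smul hh, Finset.card_smul_finset]
  exact hy

theorem Bm_smul {H : Subgroup G} (m : ℕ) {h : G} (hh : h ∈ H) (x : Ω) :
    Bm H m (h • x) = h • Bm H m x := by
  ext z
  rw [Finset.mem_smul_finset]
  constructor
  · intro hz
    refine ⟨h⁻¹ • z, ?_, smul_inv_smul h z⟩
    have := smul_mem_Bm (inv_mem hh) hz
    rwa [inv_smul_smul] at this
  · rintro ⟨w, hw, rfl⟩
    exact smul_mem_Bm hh hw

theorem Bm_card_smul {H : Subgroup G} (m : ℕ) {h : G} (hh : h ∈ H) (x : Ω) :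
    (Bm H m (h • x)).card = (Bm H m x).card := by
  rw [Bm_smul m hh, Finset.card_smul_finset]

/-- an element of prime order `p > m` of the stabiliser of `x` fixes the block of `x` pointwise -/
theorem fix_of_mem_Bm {H : Subgroup G} {m : ℕ} {x y : Ω} {f : G} (hf : f ∈ ptS H x) {p : ℕ}
    [Fact p.Prime] (hfp : f ^ p = 1) (hm : m < p) (hy : y ∈ Bm H m x) : f • y = y := by
  rw [mem_Bm] at hy
  have h1 := fix_mod hfp (A := orbF (ptS H x) y) (fun a ha => smul_mem_orbF hf ha)
  have h2 : (orbF (ptS H x) y ∩ fixF f).card ≤ (orbF (ptS H x) y).card :=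
    Finset.card_le_card Finset.inter_subset_left
  have h3 : (orbF (ptS H x) y ∩ fixF f).card = (orbF (ptS H x) y).card :=
    Nat.ModEq.eq_of_lt_of_lt h1 (by omega) (by omega)
  have h4 : orbF (ptS H x) y ∩ fixF f = orbF (ptS H x) y :=
    Finset.eq_of_subset_of_card_le Finset.inter_subset_left (by rw [h3])
  have h5 : y ∈ orbF (ptS H x) y ∩ fixF f := by
    rw [h4]
    exact self_mem_orbF _ y
  exact mem_fixF.mp (Finset.mem_inter.mp h5).2

/-- if the blocks form a partition, the fixed points of an element of prime order `p > m`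
are a union of blocks -/
theorem block_dvd {H : Subgroup G} {m c : ℕ} (hm : 1 ≤ m)
    (hB : ∀ x y : Ω, y ∈ Bm H m x → Bm H m y = Bm H m x) (hc : ∀ x : Ω, (Bm H m x).card = c)
    {f : G} (hf : f ∈ H) {p : ℕ} [Fact p.Prime] (hfp : f ^ p = 1) (hmp : m < p) :
    c ∣ (fixF f : Finset Ω).card := by
  classical
  have h1 := Finset.card_eq_sum_card_fiberwise (f := Bm H m) (s := (fixF f : Finset Ω))
    (t := (fixF f).image (Bm H m)) (fun x hx => Finset.mem_image_of_mem _ hx)
  have h2 : ∀ b ∈ (fixF f : Finset Ω).image (Bm H m),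
      ((fixF f : Finset Ω).filter (fun x => Bm H m x = b)).card = c := by
    intro b hb
    obtain ⟨x₀, hx₀, rfl⟩ := Finset.mem_image.mp hb
    have : (fixF f : Finset Ω).filter (fun x => Bm H m x = Bm H m x₀) = Bm H m x₀ := by
      ext x
      rw [Finset.mem_filter]
      constructor
      · rintro ⟨_, hx⟩
        rw [← hx]
        exact self_mem_Bm H hm x
      · intro hx
        refine ⟨mem_fixF.mpr ?_, hB x₀ x hx⟩
        exact fix_of_mem_Bm (mem_ptS.mpr ⟨hf, mem_fixF.mp hx₀⟩) hfp hmp hx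
    rw [this, hc]
  rw [Finset.sum_congr rfl h2, Finset.sum_const, smul_eq_mul] at h1
  exact Dvd.intro_left _ h1.symm

/-! ### Transitive subgroups -/

theorem trans_of_orbF_univ {H : Subgroup G} {x : Ω} (h : orbF H x = Finset.univ) :
    ∀ y z : Ω, ∃ h ∈ H, h • y = z := by
  intro y z
  obtain ⟨h₁, hh₁, rfl⟩ := mem_orbF.mp (h ▸ Finset.mem_univ y)
  obtain ⟨h₂, hh₂, rfl⟩ := mem_orbF.mp (h ▸ Finset.mem_univ z)
  exact ⟨h₂ * h₁⁻¹, mul_mem hh₂ (inv_mem hh₁), by rw [mul_smul, inv_smul_smul]⟩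

theorem orbF_univ_of_trans {H : Subgroup G} (htr : ∀ y z : Ω, ∃ h ∈ H, h • y = z) (x : Ω) :
    orbF H x = Finset.univ := by
  ext z
  simp only [Finset.mem_univ, iff_true]
  exact mem_orbF.mpr (htr x z)

theorem card_of_trans {H : Subgroup G} (htr : ∀ y z : Ω, ∃ h ∈ H, h • y = z) (x : Ω) :
    Nat.card H = Fintype.card Ω * Nat.card (ptS H x) := by
  rw [card_eq_orbF_mul H x, orbF_univ_of_trans htr, Finset.card_univ]

/-- removing a fixed point from an invariant set -/
theorem inv_erase {H : Subgroup G} {A : Finset Ω} (hA : ∀ h ∈ H, ∀ a ∈ A, h • a ∈ A) {x : Ω}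
    (hx : ∀ h ∈ H, h • x = x) : ∀ h ∈ H, ∀ a ∈ A.erase x, h • a ∈ A.erase x := by
  intro h hh a ha
  rw [Finset.mem_erase] at ha ⊢
  refine ⟨fun hcon => ha.1 ?_, hA h hh a ha.2⟩
  have h5 : h • a = h • x := by rw [hcon, hx h hh]
  exact MulAction.injective h h5

theorem ptS_fixes (H : Subgroup G) (x : Ω) : ∀ h ∈ ptS H x, h • x = x :=
  fun _ hh => (mem_ptS.mp hh).2

/-- a point outside the orbit of `y` under the stabiliser of `x` -/
theorem not_mem_orbF_ptS {H : Subgroup G} {x y : Ω} (hxy : y ≠ x) : x ∉ orbF (ptS H x) y := by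
  intro hcon
  obtain ⟨h, hh, hy⟩ := mem_orbF.mp hcon
  apply hxy
  have h1 : h • y = h • x := by rw [hy, (mem_ptS.mp hh).2]
  exact MulAction.injective h h1

/-- for a transitive subgroup the fixed-point sets of the point stabilisers form a partition -/
theorem Bm_one_eq [Finite G] {H : Subgroup G} (htr : ∀ y z : Ω, ∃ h ∈ H, h • y = z) {x y : Ω}
    (hy : y ∈ Bm H 1 x) : Bm H 1 y = Bm H 1 x := by
  rw [mem_Bm] at hy
  have h1 : orbF (ptS H x) y = {y} := by
    apply Finset.eq_of_subset_of_card_le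
    · intro z hz
      obtain ⟨w, hw⟩ := Finset.card_eq_one.mp
        (le_antisymm hy (Finset.card_pos.mpr ⟨y, self_mem_orbF _ y⟩))
      rw [hw] at hz
      have hy' := self_mem_orbF (ptS H x) y
      rw [hw] at hy'
      rw [Finset.mem_singleton] at hz hy' ⊢
      rw [hz, hy']
    · rw [Finset.card_singleton]
      exact Finset.card_pos.mpr ⟨y, self_mem_orbF _ y⟩
  have h2 : ptS H x ≤ ptS H y := by
    intro h hh
    refine mem_ptS.mpr ⟨(mem_ptS.mp hh).1, ?_⟩
    have := smul_mem_orbF hh (self_mem_orbF (ptS H x) y)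
    rw [h1, Finset.mem_singleton] at this
    exact this
  have h3 : ptS H x = ptS H y := by
    apply Subgroup.eq_of_le_of_card_ge h2
    have ha := card_of_trans htr x
    have hb := card_of_trans htr y
    have hpos : 0 < Fintype.card Ω := Fintype.card_pos_iff.mpr ⟨x⟩
    have : Fintype.card Ω * Nat.card (ptS H y) = Fintype.card Ω * Nat.card (ptS H x) := by
      rw [← ha, ← hb]
    exact le_of_eq (Nat.eq_of_mul_eq_mul_left hpos this)
  unfold Bm
  rw [h3]

/-- all blocks of a transitive subgroup have the same size -/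
theorem Bm_card_of_trans {H : Subgroup G} (htr : ∀ y z : Ω, ∃ h ∈ H, h • y = z) (m : ℕ)
    (x y : Ω) : (Bm H m y).card = (Bm H m x).card := by
  obtain ⟨h, hh, rfl⟩ := htr x y
  exact Bm_card_smul m hh x

/-- the difference of two invariant sets is invariant -/
theorem inv_sdiff {H : Subgroup G} {A B : Finset Ω} (hA : ∀ h ∈ H, ∀ a ∈ A, h • a ∈ A)
    (hB : ∀ h ∈ H, ∀ a ∈ B, h • a ∈ B) : ∀ h ∈ H, ∀ a ∈ A \ B, h • a ∈ A \ B := by
  intro h hh a ha
  rw [Finset.mem_sdiff] at ha ⊢
  refine ⟨hA h hh a ha.1, fun hcon => ha.2 ?_⟩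
  have := hB h⁻¹ (inv_mem hh) _ hcon
  rwa [inv_smul_smul] at this

/-- if the complement of an orbit of the stabiliser of `α` has `m + 1` points and the orbit has
more than `m` points, the complement is the block of `α` -/
theorem Bm_eq_compl {H : Subgroup G} {α y : Ω} {m : ℕ} (hm : 1 ≤ m)
    (h1 : ((orbF (ptS H α) y)ᶜ).card = m + 1) (h2 : m < (orbF (ptS H α) y).card)
    (hy : y ≠ α) : Bm H m α = (orbF (ptS H α) y)ᶜ := by
  have hα : α ∉ orbF (ptS H α) y := not_mem_orbF_ptS hy
  have hinv := inv_compl (H := ptS H α) (A := orbF (ptS H α) y)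
    (fun h hh a ha => smul_mem_orbF hh ha)
  have hinv' := inv_erase hinv (ptS_fixes H α)
  ext z
  rw [mem_Bm, Finset.mem_compl]
  constructor
  · intro hz hcon
    rw [orbF_eq_of_mem hcon] at hz
    omega
  · intro hz
    by_cases hzx : z = α
    · rw [hzx, orbF_ptS_self, Finset.card_singleton]
      exact hm
    · have h3 : orbF (ptS H α) z ⊆ ((orbF (ptS H α) y)ᶜ).erase α :=
        orbF_subset hinv' (Finset.mem_erase.mpr ⟨hzx, Finset.mem_compl.mpr hz⟩)
      have h4 := Finset.card_le_card h3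
      rw [Finset.card_erase_of_mem (Finset.mem_compl.mpr hα), h1] at h4
      exact h4

/-- the block of `x` is invariant under the stabiliser of `x` -/
theorem Bm_inv (H : Subgroup G) (m : ℕ) (x : Ω) :
    ∀ h ∈ ptS H x, ∀ a ∈ Bm H m x, h • a ∈ Bm H m x := by
  intro h hh a ha
  have := smul_mem_Bm (mem_ptS.mp hh).1 ha
  rwa [(mem_ptS.mp hh).2] at this

/-- point stabilisers of a transitive subgroup have the same order -/
theorem card_ptS_of_trans [Finite G] {H : Subgroup G} (htr : ∀ y z : Ω, ∃ h ∈ H, h • y = z)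
    (x y : Ω) : Nat.card (ptS H y) = Nat.card (ptS H x) := by
  have ha := card_of_trans htr x
  have hb := card_of_trans htr y
  have hpos : 0 < Fintype.card Ω := Fintype.card_pos_iff.mpr ⟨x⟩
  have : Fintype.card Ω * Nat.card (ptS H y) = Fintype.card Ω * Nat.card (ptS H x) := by
    rw [← ha, ← hb]
  exact Nat.eq_of_mul_eq_mul_left hpos this

end Cfsg.Agent.H33.Idx
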