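import Cfsg.Agent.H33.IdxAD

/-!
# Subgroups of index 1771 of `M24` are the stabilisers of the sextets
-/

set_option autoImplicit false
set_option linter.unusedSectionVars false

namespace Cfsg.Agent.H33.Idx

open Cfsg Cfsg.Agent.H9 MulAction
open scoped Pointwise

/-- the case where the stabiliser of a point has an orbit of 20 points: a sextet -/
theorem sextet_case {H : Subgroup M24} (htr : ∀ y z : GolayPt, ∃ h ∈ H, h • y = z)
    (hcard : Nat.card H = 138240) {O : Finset GolayPt} (hO : O ∈ octads)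
    (hK : fixingSubgroup M24 (O : Set GolayPt) ≤ H) {α : GolayPt} (hα : α ∈ O) {y : GolayPt}
    (hy : y ∉ O) (hn : (orbF (ptS H α) y).card = 20) :
    ∃ S ∈ sextets, H = MulAction.stabilizer M24 S := by
  classical
  have hyα : y ≠ α := fun h => hy (h ▸ hα)
  have hBα : Bm H 3 α = (orbF (ptS H α) y)ᶜ :=
    Bm_eq_compl (m := 3) (by norm_num) (by rw [card_compl', hn]) (by rw [hn]; norm_num) hyα
  have hc : ∀ x : GolayPt, (Bm H 3 x).card = 4 := fun x => by
    rw [Bm_card_of_trans htr 3 α x, hBα, card_compl', hn]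
  have hV : ∀ x : GolayPt, Nat.card (ptS H x) = 5760 := fun x => by
    have := card_of_trans htr x
    rw [fcard_pt, hcard] at this
    omega
  -- transitivity of the stabiliser of `x` outside the block of `x`
  have hΘα : ∀ z ∉ Bm H 3 α, ∀ z' ∉ Bm H 3 α, ∃ v ∈ ptS H α, v • z = z' := by
    intro z hz z' hz'
    rw [hBα, Finset.mem_compl, not_not] at hz hz'
    obtain ⟨v₁, hv₁, rfl⟩ := mem_orbF.mp hz
    obtain ⟨v₂, hv₂, rfl⟩ := mem_orbF.mp hz'
    exact ⟨v₂ * v₁⁻¹, mul_mem hv₂ (inv_mem hv₁), by rw [mul_smul, inv_smul_smul]⟩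
  have hΘ : ∀ x : GolayPt, ∀ z ∉ Bm H 3 x, ∀ z' ∉ Bm H 3 x, ∃ v ∈ ptS H x, v • z = z' := by
    intro x z hz z' hz'
    obtain ⟨h, hh, rfl⟩ := htr α x
    rw [Bm_smul 3 hh] at hz hz'
    have hz1 : h⁻¹ • z ∉ Bm H 3 α := fun hcon => hz (by
      have := Finset.smul_mem_smul_finset (a := h) hcon
      rwa [smul_inv_smul] at this)
    have hz1' : h⁻¹ • z' ∉ Bm H 3 α := fun hcon => hz' (by
      have := Finset.smul_mem_smul_finset (a := h) hcon
      rwa [smul_inv_smul] at this)
    obtain ⟨v, hv, hvz⟩ := hΘα _ hz1 _ hz1'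
    refine ⟨h * v * h⁻¹, mem_ptS.mpr ⟨mul_mem (mul_mem hh (mem_ptS.mp hv).1) (inv_mem hh), ?_⟩, ?_⟩
    · rw [mul_smul, mul_smul, inv_smul_smul, (mem_ptS.mp hv).2]
    · rw [mul_smul, mul_smul, hvz, smul_inv_smul]
  -- the blocks form a partition
  have key : ∀ x y : GolayPt, y ∈ Bm H 3 x → Bm H 3 y = Bm H 3 x := by
    intro x y hy
    by_cases hyx : y = x
    · rw [hyx]
    apply Finset.eq_of_subset_of_card_le _ (by rw [hc, hc])
    intro z' hz'
    by_contra hz'x
    exfalso
    have h1 := card_eq_orbF_mul (ptS H x) y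
    have h1' : (orbF (ptS H x) y).card ≤ 3 := mem_Bm.mp hy
    have hWy : ptS (ptS H x) y ≤ ptS H y := ptS_mono (ptS_le H x) y
    have h2 := card_eq_orbF_mul (ptS (ptS H x) y) z'
    have h2' : (orbF (ptS (ptS H x) y) z').card ≤ 3 :=
      (Finset.card_le_card (orbF_mono hWy z')).trans (mem_Bm.mp hz')
    set W' := ptS (ptS (ptS H x) y) z' with hW'
    have hW'x : W' ≤ ptS H x := (ptS_le _ z').trans (ptS_le _ y)
    have hfx : ∀ w ∈ W', w • x = x := fun w hw => (mem_ptS.mp (hW'x hw)).2
    have hfy : ∀ w ∈ W', w • y = y := fun w hw => (mem_ptS.mp (ptS_le _ z' hw)).2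
    have hfz : ∀ w ∈ W', w • z' = z' := fun w hw => (mem_ptS.mp hw).2
    have hinvB : ∀ w ∈ W', ∀ a ∈ Bm H 3 x, w • a ∈ Bm H 3 x :=
      fun w hw a ha => Bm_inv H 3 x w (hW'x hw) a ha
    have hinvR := inv_erase (inv_erase hinvB hfx) hfy
    have hxB : x ∈ Bm H 3 x := self_mem_Bm H (by norm_num) x
    have hR2 : (((Bm H 3 x).erase x).erase y).card = 2 := by
      rw [Finset.card_erase_of_mem (Finset.mem_erase.mpr ⟨hyx, hy⟩),
        Finset.card_erase_of_mem hxB, hc]
    have h3 := card_le_factorial_mul 2 _ W' hR2 hinvR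
    have h4 : Nat.card (W' ⊓ fixingSubgroup M24
        ((((Bm H 3 x).erase x).erase y : Finset GolayPt) : Set GolayPt) : Subgroup M24) ∣ 48 := by
      rw [← card_fix5 (A := insert z' (Bm H 3 x)) (by
        rw [Finset.card_insert_of_notMem hz'x, hc])]
      apply card_dvd_of_fixes
      intro v hv a ha
      rw [Subgroup.mem_inf, mem_fixingSubgroup_iff] at hv
      rw [Finset.mem_insert] at ha
      rcases ha with rfl | ha
      · exact hfz v hv.1
      · by_cases hax : a = x
        · rw [hax]; exact hfx v hv.1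
        · by_cases hay : a = y
          · rw [hay]; exact hfy v hv.1
          · exact hv.2 a (Finset.mem_coe.mpr
              (Finset.mem_erase.mpr ⟨hay, Finset.mem_erase.mpr ⟨hax, ha⟩⟩))
    have h5' := Nat.le_of_dvd (by norm_num) h4
    have h6 := hV x
    have hf2 : Nat.factorial 2 = 2 := rfl
    rw [hf2] at h3
    have h7 : Nat.card (ptS (ptS H x) y) ≤ 3 * Nat.card W' := by
      rw [h2]; exact Nat.mul_le_mul_right _ h2'
    have h8 : Nat.card (ptS H x) ≤ 3 * Nat.card (ptS (ptS H x) y) := by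
      rw [h1]; exact Nat.mul_le_mul_right _ h1'
    omega
  have hdisj : ∀ x x' : GolayPt, Bm H 3 x ≠ Bm H 3 x' → Disjoint (Bm H 3 x) (Bm H 3 x') := by
    intro x x' hne
    rw [Finset.disjoint_left]
    intro w hw hw'
    exact hne ((key x w hw).symm.trans (key x' w hw'))
  -- the octad `O` is the union of two blocks
  have hBαO : Bm H 3 α ⊆ O := by
    rw [hBα]
    exact compl_orbF_subset hO (K_le_ptS hK hα) hy
  obtain ⟨x₁, hx₁O, hx₁B⟩ : ∃ x₁ ∈ O, x₁ ∉ Bm H 3 α := by
    by_contra hcon
    simp only [not_exists, not_and, not_not] at hcon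
    have := Finset.card_le_card (show O ⊆ Bm H 3 α from hcon)
    rw [hO.2, hc] at this
    omega
  have hBx₁O : Bm H 3 x₁ ⊆ O := by
    intro z hz
    by_contra hzO
    have h1 : Oᶜ ⊆ Bm H 3 x₁ := by
      intro q hq
      obtain ⟨k, hk, hkz⟩ := K_trans hO hzO (Finset.mem_compl.mp hq)
      have := Bm_inv H 3 x₁ k (K_le_ptS hK hx₁O hk) z hz
      rwa [hkz] at this
    have := Finset.card_le_card h1
    rw [card_compl', hO.2, hc] at this
    omega
  have hne₁ : Bm H 3 α ≠ Bm H 3 x₁ := fun h => hx₁B (h ▸ self_mem_Bm H (by norm_num) x₁)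
  have hOeq : Bm H 3 α ∪ Bm H 3 x₁ = O := by
    apply Finset.eq_of_subset_of_card_le (Finset.union_subset hBαO hBx₁O)
    rw [Finset.card_union_of_disjoint (hdisj _ _ hne₁), hc, hc, hO.2]
  -- any two blocks form an octad
  have hpair : ∀ u v : GolayPt, Bm H 3 u ≠ Bm H 3 v → Bm H 3 u ∪ Bm H 3 v ∈ octads := by
    intro u v hne
    have hvu : v ∉ Bm H 3 u := fun h => hne (key u v h).symm
    obtain ⟨h₁, hh₁, rfl⟩ := htr α u
    have hx₂ : h₁ • x₁ ∉ Bm H 3 (h₁ • α) := by
      rw [Bm_smul 3 hh₁]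
      intro hcon
      obtain ⟨w, hw, hwe⟩ := Finset.mem_smul_finset.mp hcon
      rw [MulAction.injective h₁ hwe] at hw
      exact hx₁B hw
    obtain ⟨v₀, hv₀, hv₀x⟩ := hΘ (h₁ • α) _ hx₂ _ hvu
    have hv₀H := (mem_ptS.mp hv₀).1
    have e1 : Bm H 3 (h₁ • α) = (v₀ * h₁) • Bm H 3 α := by
      rw [mul_smul, ← Bm_smul 3 hh₁, ← Bm_smul 3 hv₀H, (mem_ptS.mp hv₀).2]
    have e2 : Bm H 3 v = (v₀ * h₁) • Bm H 3 x₁ := by
      rw [mul_smul, ← Bm_smul 3 hh₁, ← Bm_smul 3 hv₀H, hv₀x]
    rw [e1, e2, ← Finset.smul_finset_union, hOeq]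
    exact smul_octad _ hO
  -- the sextet
  obtain ⟨S, hS⟩ : ∃ S : Finset (Finset GolayPt), S = Finset.univ.image (Bm H 3) := ⟨_, rfl⟩
  have hSmem : ∀ b ∈ S, ∃ x, Bm H 3 x = b := fun b hb => by
    rw [hS] at hb
    obtain ⟨x, _, hx⟩ := Finset.mem_image.mp hb
    exact ⟨x, hx⟩
  have hmemS : ∀ x : GolayPt, Bm H 3 x ∈ S := fun x => by
    rw [hS]
    exact Finset.mem_image_of_mem _ (Finset.mem_univ x)
  have hcover : S.biUnion id = Finset.univ := by
    ext x
    simp only [Finset.mem_biUnion, id, Finset.mem_univ, iff_true]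
    exact ⟨Bm H 3 x, hmemS x, self_mem_Bm H (by norm_num) x⟩
  have hS6 : S.card = 6 := by
    have h1 := Finset.card_biUnion (s := S) (t := id) (fun b₁ h₁ b₂ h₂ hne => by
      obtain ⟨x₁, rfl⟩ := hSmem b₁ h₁
      obtain ⟨x₂, rfl⟩ := hSmem b₂ h₂
      exact hdisj _ _ hne)
    rw [hcover, Finset.card_univ, fcard_pt] at h1
    have h2 : ∑ u ∈ S, (id u : Finset GolayPt).card = ∑ _u ∈ S, 4 :=
      Finset.sum_congr rfl (fun b hb => by
        obtain ⟨x, rfl⟩ := hSmem b hb
        exact hc x)
    rw [h2, Finset.sum_const, smul_eq_mul] at h1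
    omega
  have hSx : S ∈ sextets := by
    refine ⟨hS6, fun t ht => ?_, fun t ht u hu hne => ?_⟩
    · obtain ⟨x, rfl⟩ := hSmem t ht
      exact hc x
    · obtain ⟨x, rfl⟩ := hSmem t ht
      obtain ⟨x', rfl⟩ := hSmem u hu
      exact hpair x x' hne
  refine ⟨S, hSx, ?_⟩
  apply Subgroup.eq_of_le_of_card_ge
  · intro h hh
    rw [MulAction.mem_stabilizer_iff]
    apply smul_finset_eq
    intro b hb
    obtain ⟨x, rfl⟩ := hSmem b hb
    rw [← Bm_smul 3 hh]
    exact hmemS _
  · rw [card_stab_sextet hSx, hcard]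

/-- the case where the stabiliser of a point of `O` preserves `O` is impossible -/
theorem c0_false {H : Subgroup M24} (htr : ∀ y z : GolayPt, ∃ h ∈ H, h • y = z)
    (hcard : Nat.card H = 138240) {O : Finset GolayPt} (hO : O ∈ octads)
    (hK : fixingSubgroup M24 (O : Set GolayPt) ≤ H) {α : GolayPt} (hα : α ∈ O)
    (hinv : ∀ v ∈ ptS H α, ∀ a ∈ O, v • a ∈ O) : False := by
  haveI : Fact (Nat.Prime 5) := ⟨by norm_num⟩
  have hcV := card_of_trans htr α
  rw [fcard_pt, hcard] at hcV
  have hV : Nat.card (ptS H α) = 5760 := by omega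
  obtain ⟨f, hf, hfo⟩ := exists_orderOf_eq (ptS H α) 5 (by rw [hV]; norm_num)
  have hF4 := fixF_card_five hfo
  have hαF : α ∈ fixF f := mem_fixF.mpr (mem_ptS.mp hf).2
  have hfp : f ^ 5 = 1 := by rw [← hfo]; exact pow_orderOf_eq_one f
  -- fixed points in `O`
  have h1 := fix_mod hfp (A := O) (fun a ha => hinv f hf a ha)
  have h1' := inter_fix_le (A := O) f
  rw [hF4] at h1'
  rw [hO.2] at h1
  have hOF : (O ∩ fixF f).card = 3 := by
    unfold Nat.ModEq at h1
    omega
  obtain ⟨x, hxO, hxF⟩ : ∃ x ∈ O, x ∉ fixF f := by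
    by_contra hcon
    simp only [not_exists, not_and, not_not] at hcon
    have : O ∩ fixF f = O := Finset.inter_eq_left.mpr hcon
    rw [this, hO.2] at hOF
    omega
  have hxα : x ≠ α := fun h => hxF (h ▸ hαF)
  have hαΘ : α ∉ orbF (ptS H α) x := not_mem_orbF_ptS hxα
  have hinv' := inv_erase hinv (ptS_fixes H α)
  have hΘO : orbF (ptS H α) x ⊆ O.erase α :=
    orbF_subset hinv' (Finset.mem_erase.mpr ⟨hxα, hxO⟩)
  have hn7 : (orbF (ptS H α) x).card ≤ 7 := by
    have := Finset.card_le_card hΘO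
    rwa [Finset.card_erase_of_mem hα, hO.2] at this
  have h5 := orbF_mod hf hfo x
  have ha : (orbF (ptS H α) x ∩ fixF f).card ≤ 2 := by
    have h6 : orbF (ptS H α) x ∩ fixF f ⊆ (O ∩ fixF f).erase α := by
      intro z hz
      rw [Finset.mem_inter] at hz
      rw [Finset.mem_erase, Finset.mem_inter]
      exact ⟨fun h => hαΘ (h ▸ hz.1), (Finset.mem_erase.mp (hΘO hz.1)).2, hz.2⟩
    have := Finset.card_le_card h6
    rwa [Finset.card_erase_of_mem (Finset.mem_inter.mpr ⟨hα, hαF⟩), hOF] at this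
  have hlt := inter_fix_lt' (self_mem_orbF (ptS H α) x) hxF
  have hdvd := Nat.mod_eq_zero_of_dvd (orbF_card_dvd (ptS H α) x)
  rw [hV] at hdvd
  unfold Nat.ModEq at h5
  have hinvΘ : ∀ h ∈ ptS H α, ∀ a ∈ orbF (ptS H α) x, h • a ∈ orbF (ptS H α) x :=
    fun h hh a ha => smul_mem_orbF hh ha
  have hinvR := inv_sdiff hinv' hinvΘ
  have hRcard : (O.erase α \ orbF (ptS H α) x).card = 7 - (orbF (ptS H α) x).card := by
    rw [Finset.card_sdiff_of_subset hΘO, Finset.card_erase_of_mem hα, hO.2]
  have hn : (orbF (ptS H α) x).card = 5 ∨ (orbF (ptS H α) x).card = 6 := by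
    generalize (orbF (ptS H α) x).card = n at *
    generalize (orbF (ptS H α) x ∩ fixF f).card = a at *
    interval_cases n <;> omega
  rcases hn with hn | hn
  · -- blocks of size 3
    have hαR : α ∉ O.erase α \ orbF (ptS H α) x := by
      rw [Finset.mem_sdiff, Finset.mem_erase]
      exact fun h => h.1.1 rfl
    have hB : Bm H 2 α = insert α (O.erase α \ orbF (ptS H α) x) := by
      ext z
      rw [mem_Bm, Finset.mem_insert, Finset.mem_sdiff, Finset.mem_erase]
      constructor
      · intro hz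
        by_cases hzα : z = α
        · exact Or.inl hzα
        · right
          have hzO : z ∈ O := by
            by_contra hzO
            have := Finset.card_le_card (compl_subset_orbF hO (K_le_ptS hK hα) hzO)
            rw [card_compl', hO.2] at this
            omega
          refine ⟨⟨hzα, hzO⟩, fun hcon => ?_⟩
          rw [orbF_eq_of_mem hcon, hn] at hz
          omega
      · rintro (rfl | ⟨⟨hzα, hzO⟩, hzΘ⟩)
        · rw [orbF_ptS_self, Finset.card_singleton]
          norm_num
        · have h6 : orbF (ptS H α) z ⊆ O.erase α \ orbF (ptS H α) x :=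
            orbF_subset hinvR (Finset.mem_sdiff.mpr ⟨Finset.mem_erase.mpr ⟨hzα, hzO⟩, hzΘ⟩)
          have := Finset.card_le_card h6
          rw [hRcard, hn] at this
          exact this
    have hB3 : (Bm H 2 α).card = 3 := by
      rw [hB, Finset.card_insert_of_notMem hαR, hRcard, hn]
    exact block3_false htr (by rw [hcard]; norm_num) (by rw [hcard]; norm_num) hB3
  · -- a second fixed point `β` of the stabiliser of `α`
    have hR1 : (O.erase α \ orbF (ptS H α) x).card = 1 := by rw [hRcard, hn]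
    obtain ⟨β, hβ⟩ := Finset.card_eq_one.mp hR1
    have hβmem : β ∈ O.erase α \ orbF (ptS H α) x := by
      rw [hβ]
      exact Finset.mem_singleton_self β
    have hβfix : ∀ v ∈ ptS H α, v • β = β := by
      intro v hv
      have := hinvR v hv β hβmem
      rwa [hβ, Finset.mem_singleton] at this
    rw [Finset.mem_sdiff, Finset.mem_erase] at hβmem
    obtain ⟨⟨hβα, hβO⟩, hβΘ⟩ := hβmem
    have hW := card_eq_orbF_mul (ptS H α) x
    rw [hV, hn] at hW
    have hW960 : Nat.card (ptS (ptS H α) x) = 960 := by omega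
    obtain ⟨h, hh, hhx⟩ := htr α x
    -- `h • β` is fixed by the stabiliser of `x`
    have hx'fix : ∀ w ∈ ptS H x, w • (h • β) = h • β := by
      intro w hw
      have h1 : h⁻¹ * w * h ∈ ptS H α := by
        refine mem_ptS.mpr ⟨mul_mem (mul_mem (inv_mem hh) (mem_ptS.mp hw).1) hh, ?_⟩
        rw [mul_smul, mul_smul, hhx, (mem_ptS.mp hw).2, ← hhx, inv_smul_smul]
      have h2 := hβfix _ h1
      rw [mul_smul, mul_smul] at h2
      have h3 : h • (h⁻¹ • w • h • β) = h • β := by rw [h2]
      rwa [smul_inv_smul] at h3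
    have hnofix : ∀ p : GolayPt, (∀ v ∈ ptS H α, v • p = p) → (∀ w ∈ ptS H x, w • p = p) →
        False := by
      intro p hp1 hp2
      have e1 : ptS H α = ptS H p := Subgroup.eq_of_le_of_card_ge
        (fun v hv => mem_ptS.mpr ⟨(mem_ptS.mp hv).1, hp1 v hv⟩)
        (le_of_eq (card_ptS_of_trans htr α p))
      have e2 : ptS H x = ptS H p := Subgroup.eq_of_le_of_card_ge
        (fun v hv => mem_ptS.mpr ⟨(mem_ptS.mp hv).1, hp2 v hv⟩)
        (le_of_eq (card_ptS_of_trans htr x p))
      have h1 : orbF (ptS H α) x = {x} := by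
        rw [e1, ← e2]
        exact orbF_ptS_self H x
      rw [h1, Finset.card_singleton] at hn
      omega
    have hx'α : h • β ≠ α := fun hcon => hnofix α (ptS_fixes H α) (fun w hw => by
      have := hx'fix w hw
      rwa [hcon] at this)
    have hx'β : h • β ≠ β := fun hcon => hnofix β hβfix (fun w hw => by
      have := hx'fix w hw
      rwa [hcon] at this)
    have hx'x : h • β ≠ x := by
      intro hcon
      rw [← hhx] at hcon
      exact hβα (MulAction.injective h hcon)
    have hxβ : x ≠ β := fun hcon => hβΘ (hcon ▸ self_mem_orbF _ x)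
    -- the four fixed points
    obtain ⟨A, hA⟩ : ∃ A : Finset GolayPt, A = {α, β, x, h • β} := ⟨_, rfl⟩
    have n1 : x ∉ ({h • β} : Finset GolayPt) := by simp [Ne.symm hx'x]
    have n2 : β ∉ (insert x {h • β} : Finset GolayPt) := by simp [Ne.symm hxβ, Ne.symm hx'β]
    have n3 : α ∉ (insert β (insert x {h • β}) : Finset GolayPt) := by
      simp [Ne.symm hβα, Ne.symm hxα, Ne.symm hx'α]
    have hA4 : A.card = 4 := by
      rw [hA, Finset.card_insert_of_notMem n3, Finset.card_insert_of_notMem n2,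
        Finset.card_insert_of_notMem n1, Finset.card_singleton]
    have hWfix : ∀ w ∈ ptS (ptS H α) x, ∀ a ∈ A, w • a = a := by
      intro w hw a ha
      have hwα := ptS_le _ x hw
      have hwx : w ∈ ptS H x := mem_ptS.mpr ⟨(mem_ptS.mp hwα).1, (mem_ptS.mp hw).2⟩
      rw [hA] at ha
      simp only [Finset.mem_insert, Finset.mem_singleton] at ha
      rcases ha with rfl | rfl | rfl | rfl
      · exact (mem_ptS.mp hwα).2
      · exact hβfix w hwα
      · exact (mem_ptS.mp hw).2
      · exact hx'fix w hwx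
    have hWeq : ptS (ptS H α) x = fixingSubgroup M24 (A : Set GolayPt) := by
      apply Subgroup.eq_of_le_of_card_ge
      · intro w hw
        exact (mem_fixingSubgroup_iff M24).mpr fun a ha => hWfix w hw a (Finset.mem_coe.mp ha)
      · rw [card_fix4 hA4, hW960]
    obtain ⟨p, hpO, hpA⟩ : ∃ p ∈ O, p ∉ A := by
      by_contra hcon
      simp only [not_exists, not_and, not_not] at hcon
      have := Finset.card_le_card (show O ⊆ A from hcon)
      rw [hO.2, hA4] at this
      omega
    obtain ⟨q, hq⟩ : ∃ q, q ∉ O ∪ A := by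
      by_contra hcon
      simp only [not_exists, not_not] at hcon
      have h3 : O ∪ A = Finset.univ := Finset.eq_univ_iff_forall.mpr hcon
      have h4 := Finset.card_union_le O A
      rw [h3, Finset.card_univ, fcard_pt, hO.2, hA4] at h4
      omega
    rw [Finset.mem_union, not_or] at hq
    obtain ⟨g, hg, hgp⟩ := fix_trans A (le_of_eq hA4) hpA hq.2
    rw [← hWeq] at hg
    have := hinv g (ptS_le _ x hg) p hpO
    rw [hgp] at this
    exact hq.1 this

theorem index_1771 (H : Subgroup M24) (hidx : H.index = 1771) :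
    ∃ S ∈ sextets, H = MulAction.stabilizer M24 S := by
  have hcard : Nat.card H = 138240 := by
    have := card_of_index hidx
    omega
  obtain ⟨O, hO, hK⟩ := exists_K_le H (by rw [hidx]; norm_num)
  obtain ⟨y, hy⟩ := exists_not_mem_octad hO
  rcases orbF_eq_compl_or hO hK hy with hinv | h20
  · exfalso
    have hle : H ≤ MulAction.stabilizer M24 O := by
      intro h hh
      rw [MulAction.mem_stabilizer_iff]
      exact smul_finset_eq (hinv h hh)
    have := Subgroup.card_dvd_of_le hle
    rw [card_stab_octad' hO, hcard] at this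
    omega
  · have hdvd := Nat.mod_eq_zero_of_dvd (orbF_card_dvd H y)
    have hn24 := card_le_24 (orbF H y)
    have hinvΘ := inv_compl (H := H) (A := orbF H y) (fun h hh a ha => smul_mem_orbF hh ha)
    rw [hcard] at hdvd
    have hn : (orbF H y).card = 20 ∨ (orbF H y).card = 24 := by
      generalize (orbF H y).card = n at *
      interval_cases n <;> omega
    rcases hn with hn | hn
    · exfalso
      have h1 := card_le_of_inv hinvΘ
      have h2 : ((orbF H y)ᶜ).card = 4 := by rw [card_compl', hn]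
      rw [h2, card_fix4 h2] at h1
      have hf : Nat.factorial 4 = 24 := rfl
      rw [hf] at h1
      omega
    · have htr := trans_of_orbF_univ (H := H) (x := y) (Finset.eq_univ_of_card _ (by
        rw [hn, fcard_pt]))
      obtain ⟨α, hα⟩ := exists_mem_octad hO
      have hyα : y ≠ α := fun h => hy (h ▸ hα)
      have hcV := card_of_trans htr α
      rw [fcard_pt, hcard] at hcV
      have hV : Nat.card (ptS H α) = 5760 := by omega
      have hKV := K_le_ptS hK hα
      rcases orbF_eq_compl_or hO hKV hy with hinv | h20'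
      · exact (c0_false htr hcard hO hK hα hinv).elim
      · have hαΘ : α ∉ orbF (ptS H α) y := not_mem_orbF_ptS hyα
        have hn23 : (orbF (ptS H α) y).card ≤ 23 := by
          have h1 : orbF (ptS H α) y ⊆ Finset.univ.erase α := by
            intro z hz
            rw [Finset.mem_erase]
            exact ⟨fun hcon => hαΘ (hcon ▸ hz), Finset.mem_univ _⟩
          have h2 := Finset.card_le_card h1
          rwa [Finset.card_erase_of_mem (Finset.mem_univ _), Finset.card_univ, fcard_pt] at h2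
        have hdvd' := Nat.mod_eq_zero_of_dvd (orbF_card_dvd (ptS H α) y)
        rw [hV] at hdvd'
        have hn' : (orbF (ptS H α) y).card = 20 := by
          generalize (orbF (ptS H α) y).card = n at *
          interval_cases n <;> omega
        exact sextet_case htr hcard hO hK hα hy hn'

end Cfsg.Agent.H33.Idx
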