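import Cfsg.Agent.H33.Objs
import Cfsg.Agent.H33.Sextet
import Cfsg.Agent.H33.OctStab

/-!
# Coded objects for orbit censuses (helper33): sextets

A sextet is coded by the mask of its tetrad containing the point of index `0`.
-/

set_option autoImplicit false

namespace Cfsg.Agent.H33

open Cfsg Cfsg.Agent.H9 MulAction
open scoped Pointwise

theorem smul_mem_sextets {g : Equiv.Perm GolayPt} (hg : g ∈ M24)
    {S : Finset (Finset GolayPt)} (hSx : S ∈ sextets) : g • S ∈ sextets := by
  refine ⟨?_, ?_, ?_⟩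
  · rw [Finset.card_smul_finset]; exact hSx.1
  · intro t ht
    obtain ⟨t', ht', rfl⟩ := Finset.mem_smul_finset.mp ht
    rw [Finset.card_smul_finset]
    exact hSx.2.1 t' ht'
  · intro t ht u hu htu
    obtain ⟨t', ht', rfl⟩ := Finset.mem_smul_finset.mp ht
    obtain ⟨u', hu', rfl⟩ := Finset.mem_smul_finset.mp hu
    have hne : t' ≠ u' := fun h => htu (by rw [h])
    rw [← Finset.smul_finset_union]
    exact m24_smul_mem_octads hg (hSx.2.2 t' ht' u' hu' hne)

theorem smul_sextetOf {g : Equiv.Perm GolayPt} (hg : g ∈ M24) (t : Finset GolayPt)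
    (ht : t.card = 4) : g • sextetOf t = sextetOf (g • t) :=
  sextet_eq_sextetOf hS (g • t) (by rw [Finset.card_smul_finset]; exact ht) (g • sextetOf t)
    (smul_mem_sextets hg (sextetOf_mem_sextets hW hS t ht))
    (Finset.smul_mem_smul_finset (self_mem_sextetOf t))

theorem sextetOf_eq_of_mem {t t' : Finset GolayPt} (ht : t.card = 4) (ht' : t'.card = 4)
    (h : t' ∈ sextetOf t) : sextetOf t = sextetOf t' :=
  sextet_eq_sextetOf hS t' ht' (sextetOf t) (sextetOf_mem_sextets hW hS t ht) h

/-- two tetrads whose symmetric difference is a code word span the same sextet -/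
theorem sextetOf_eq_of_isGolay {a b : ℕ} (ha : pcT a = 4) (hb : pcT b = 4)
    (h : isGolay (Nat.xor a b) = true) : sextetOf (fs a) = sextetOf (fs b) := by
  have hca : (fs a).card = 4 := by rw [card_fs', ha]
  have hcb : (fs b).card = 4 := by rw [card_fs', hb]
  have hgc : symmDiff (fs a) (fs b) ∈ GC := by
    rw [← fs_xor]
    obtain ⟨k, hk, e⟩ := isGolay_iff.mp h
    have e' : a ^^^ b = cw k := e
    rw [e']
    exact (mem_supports_iff _).mpr ⟨k, hk, rfl⟩
  have hcard := gc_card hW hgc
  have h2 := card_symmDiff_add (fs a) (fs b)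
  rw [hca, hcb] at h2
  have hle : (fs a ∩ fs b).card ≤ 4 := by
    rw [← hca]; exact Finset.card_le_card Finset.inter_subset_left
  rcases hcard with h0 | h8 | h12 | h16 | h24
  · -- equal
    have hi : (fs a ∩ fs b).card = 4 := by omega
    have e1 : fs a ∩ fs b = fs a :=
      Finset.eq_of_subset_of_card_le Finset.inter_subset_left (by rw [hi, hca])
    have e2 : fs a ∩ fs b = fs b :=
      Finset.eq_of_subset_of_card_le Finset.inter_subset_right (by rw [hi, hcb])
    rw [← e1, e2]
  · -- disjoint with union an octad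
    have hi : (fs a ∩ fs b).card = 0 := by omega
    have hdis : Disjoint (fs a) (fs b) := by
      rw [Finset.disjoint_iff_inter_eq_empty]; exact Finset.card_eq_zero.mp hi
    have hun : fs a ∪ fs b ∈ octads := by
      have e : symmDiff (fs a) (fs b) = fs a ∪ fs b := by
        rw [symmDiff_eq_sup_sdiff_inf]
        show (fs a ∪ fs b) \ (fs a ∩ fs b) = fs a ∪ fs b
        rw [Finset.card_eq_zero.mp hi, Finset.sdiff_empty]
      rw [← e]
      exact ⟨hgc, h8⟩
    apply sextetOf_eq_of_mem hca hcb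
    rw [mem_sextetOf]
    right
    exact ⟨fs a ∪ fs b, ⟨hun, Finset.subset_union_left⟩, Finset.union_sdiff_cancel_left hdis⟩
  · omega
  · omega
  · omega

/-! ## The object type -/

def sextValid (m : ℕ) : Bool :=
  Nat.beq (pcT m) 4 && (Nat.beq (Nat.land m 1) 1 && Nat.blt m 0x1000000)

def sextEdge (P a b : ℕ) : Bool := isGolay (Nat.xor (imgN P a) b)

theorem sextValid_spec {m : ℕ} (h : sextValid m = true) :
    pcT m = 4 ∧ m.testBit 0 = true ∧ m < 2 ^ 24 := by
  unfold sextValid at h
  simp only [Bool.and_eq_true] at h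
  obtain ⟨h1, h2, h3⟩ := h
  refine ⟨Nat.eq_of_beq_eq_true h1, ?_, lt_of_blt h3⟩
  have h2' : Nat.land m 1 = 1 := Nat.eq_of_beq_eq_true h2
  rw [land_one_eq] at h2'
  rw [Nat.testBit_zero]
  exact decide_eq_true h2'

theorem sextEdge_sound (P : ℕ) (g : Equiv.Perm GolayPt) (a b : ℕ) (hr : Rep P g)
    (hg : g ∈ M24) (ha : sextValid a = true) (hb : sextValid b = true)
    (h : sextEdge P a b = true) : g • sextetOf (fs a) = sextetOf (fs b) := by
  obtain ⟨ha4, -, ha24⟩ := sextValid_spec ha
  obtain ⟨hb4, -, hb24⟩ := sextValid_spec hb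
  have hca : (fs a).card = 4 := by rw [card_fs', ha4]
  rw [smul_sextetOf hg _ hca, smul_fs hr]
  have hcard : pcT (imgN P a) = 4 := by
    rw [← card_fs', ← smul_fs hr, Finset.card_smul_finset, hca]
  exact sextetOf_eq_of_isGolay hcard hb4 h

theorem sextObj_inj (a b : ℕ) (ha : sextValid a = true) (hb : sextValid b = true)
    (h : sextetOf (fs a) = sextetOf (fs b)) : a = b := by
  obtain ⟨ha4, ha0, ha24⟩ := sextValid_spec ha
  obtain ⟨hb4, hb0, hb24⟩ := sextValid_spec hb
  have hmem : fs b ∈ sextetOf (fs a) := h ▸ self_mem_sextetOf (fs b)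
  have hp : ∀ m : ℕ, m.testBit 0 = true → gPt 0 ∈ fs m := by
    intro m hm
    rw [mem_fs, gIdx_gPt (by norm_num)]
    exact hm
  rcases mem_sextetOf.mp hmem with e | ⟨o, -, e⟩
  · exact (fs_inj hb24 ha24 e).symm
  · exfalso
    have h1 : gPt 0 ∈ o \ fs a := e ▸ hp b hb0
    exact (Finset.mem_sdiff.mp h1).2 (hp a ha0)

theorem sext_hAinv : ∀ g ∈ M24, ∀ a ∈ sextets, g • a ∈ sextets :=
  fun _ hg _ ha => smul_mem_sextets hg ha

theorem sext_mem_of_valid {m : ℕ} (h : sextValid m = true) : sextetOf (fs m) ∈ sextets :=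
  sextetOf_mem_sextets hW hS _ (by rw [card_fs', (sextValid_spec h).1])

theorem sextets_ncard' : sextets.ncard = 1771 := sextets_ncard hW hS

end Cfsg.Agent.H33
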