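import Cfsg.Agent.H33.SextOrb
import Cfsg.Agent.H9.M24c

/-!
# The stabiliser of a sextet: general theory (helper33), towards S1551

`sxH S` is the stabiliser of the sextet `S` in `M24`, `sxB S` the subgroup fixing every tetrad,
`sxN S` the subgroup of `sxB S` of the elements that map every pair of points inside a tetrad
to itself or to the complementary pair of that tetrad.
-/

set_option autoImplicit false

namespace Cfsg.Agent.H33

open Cfsg Cfsg.Agent.H9 MulAction
open scoped Pointwise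

/-- the stabiliser of `S` in `M24` -/
def sxH (S : Finset (Finset GolayPt)) : Subgroup (Equiv.Perm GolayPt) :=
  M24 ⊓ stabilizer (Equiv.Perm GolayPt) S

/-- the elements of `M24` fixing every member of `S` -/
def sxB (S : Finset (Finset GolayPt)) : Subgroup (Equiv.Perm GolayPt) where
  carrier := {g | g ∈ M24 ∧ ∀ t ∈ S, g • t = t}
  mul_mem' := by
    rintro a b ⟨ha, ha'⟩ ⟨hb, hb'⟩
    exact ⟨M24.mul_mem ha hb, fun t ht => by rw [mul_smul, hb' t ht, ha' t ht]⟩
  one_mem' := ⟨M24.one_mem, fun t _ => one_smul _ t⟩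
  inv_mem' := by
    rintro a ⟨ha, ha'⟩
    exact ⟨M24.inv_mem ha, fun t ht => by rw [inv_smul_eq_iff, ha' t ht]⟩

theorem mem_sxB {S : Finset (Finset GolayPt)} {g : Equiv.Perm GolayPt} :
    g ∈ sxB S ↔ g ∈ M24 ∧ ∀ t ∈ S, g • t = t := Iff.rfl

/-- the elements of `sxB S` acting on the pairs inside each tetrad as the identity or the
complement -/
def sxN (S : Finset (Finset GolayPt)) : Subgroup (Equiv.Perm GolayPt) where
  carrier := {g | g ∈ sxB S ∧ ∀ t ∈ S, ∀ u : Finset GolayPt, u ⊆ t → u.card = 2 →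
    g • u = u ∨ g • u = t \ u}
  mul_mem' := by
    rintro a b ⟨ha, ha'⟩ ⟨hb, hb'⟩
    refine ⟨(sxB S).mul_mem ha hb, fun t ht u hu hc => ?_⟩
    rw [mul_smul]
    rcases hb' t ht u hu hc with h | h
    · rw [h]; exact ha' t ht u hu hc
    · rw [h, Finset.smul_finset_sdiff, ha.2 t ht]
      rcases ha' t ht u hu hc with h' | h'
      · rw [h']; exact Or.inr rfl
      · rw [h']; exact Or.inl (sdiff_sdiff_eq_self hu)
  one_mem' := ⟨(sxB S).one_mem, fun t _ u _ _ => Or.inl (one_smul _ u)⟩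
  inv_mem' := by
    rintro a ⟨ha, ha'⟩
    refine ⟨(sxB S).inv_mem ha, fun t ht u hu hc => ?_⟩
    have hv : a⁻¹ • u ⊆ t := by
      rw [← Finset.subset_smul_finset_iff, ha.2 t ht]; exact hu
    have hvc : (a⁻¹ • u).card = 2 := by rw [Finset.card_smul_finset]; exact hc
    have hav : a • a⁻¹ • u = u := smul_inv_smul a u
    rcases ha' t ht _ hv hvc with h | h
    · rw [hav] at h
      exact Or.inl h.symm
    · rw [hav] at h
      right
      calc a⁻¹ • u = t \ (t \ a⁻¹ • u) := (sdiff_sdiff_eq_self hv).symm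
        _ = t \ u := by rw [← h]

theorem mem_sxN {S : Finset (Finset GolayPt)} {g : Equiv.Perm GolayPt} :
    g ∈ sxN S ↔ g ∈ sxB S ∧ ∀ t ∈ S, ∀ u : Finset GolayPt, u ⊆ t → u.card = 2 →
      g • u = u ∨ g • u = t \ u := Iff.rfl

theorem sxN_le_sxB (S : Finset (Finset GolayPt)) : sxN S ≤ sxB S := fun _ h => h.1

theorem smul_eq_of_forall_smul_eq {g : Equiv.Perm GolayPt} {S : Finset (Finset GolayPt)}
    (h : ∀ t ∈ S, g • t = t) : g • S = S := by
  ext t
  constructor
  · intro ht
    obtain ⟨t', ht', rfl⟩ := Finset.mem_smul_finset.mp ht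
    rw [h t' ht']; exact ht'
  · intro ht
    have := Finset.smul_mem_smul_finset (a := g) ht
    rw [h t ht] at this
    exact this

theorem sxB_le_sxH (S : Finset (Finset GolayPt)) : sxB S ≤ sxH S := fun _ hg =>
  Subgroup.mem_inf.mpr ⟨hg.1, mem_stabilizer_iff.mpr (smul_eq_of_forall_smul_eq hg.2)⟩

/-- conjugation by `h ∈ M24` maps `sxB S` into `sxB (h • S)` -/
theorem conj_mem_sxB {S : Finset (Finset GolayPt)} {h x : Equiv.Perm GolayPt} (hh : h ∈ M24)
    (hx : x ∈ sxB S) : h * x * h⁻¹ ∈ sxB (h • S) := by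
  refine ⟨M24.mul_mem (M24.mul_mem hh hx.1) (M24.inv_mem hh), fun t' ht' => ?_⟩
  obtain ⟨t, ht, rfl⟩ := Finset.mem_smul_finset.mp ht'
  rw [mul_smul, mul_smul, inv_smul_smul, hx.2 t ht]

/-- conjugation by `h ∈ M24` maps `sxN S` into `sxN (h • S)` -/
theorem conj_mem_sxN {S : Finset (Finset GolayPt)} {h x : Equiv.Perm GolayPt} (hh : h ∈ M24)
    (hx : x ∈ sxN S) : h * x * h⁻¹ ∈ sxN (h • S) := by
  refine ⟨conj_mem_sxB hh hx.1, fun t' ht' u' hu' hc' => ?_⟩
  obtain ⟨t, ht, rfl⟩ := Finset.mem_smul_finset.mp ht'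
  have hu : h⁻¹ • u' ⊆ t := Finset.subset_smul_finset_iff.mp hu'
  have hc : (h⁻¹ • u').card = 2 := by rw [Finset.card_smul_finset]; exact hc'
  rw [mul_smul, mul_smul]
  rcases hx.2 t ht _ hu hc with e | e
  · rw [e, smul_inv_smul]; exact Or.inl rfl
  · rw [e, Finset.smul_finset_sdiff, smul_inv_smul]; exact Or.inr rfl

theorem conj_mem_sxB_iff {S : Finset (Finset GolayPt)} {h x : Equiv.Perm GolayPt} (hh : h ∈ M24) :
    h * x * h⁻¹ ∈ sxB (h • S) ↔ x ∈ sxB S := by
  refine ⟨fun hx => ?_, conj_mem_sxB hh⟩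
  have := conj_mem_sxB (M24.inv_mem hh) hx
  rw [inv_smul_smul] at this
  simpa [mul_assoc] using this

theorem conj_mem_sxN_iff {S : Finset (Finset GolayPt)} {h x : Equiv.Perm GolayPt} (hh : h ∈ M24) :
    h * x * h⁻¹ ∈ sxN (h • S) ↔ x ∈ sxN S := by
  refine ⟨fun hx => ?_, conj_mem_sxN hh⟩
  have := conj_mem_sxN (M24.inv_mem hh) hx
  rw [inv_smul_smul] at this
  simpa [mul_assoc] using this

/-- conjugation as a bijection `sxB S ≃ sxB (h • S)` -/
theorem card_sxB_smul {S : Finset (Finset GolayPt)} {h : Equiv.Perm GolayPt} (hh : h ∈ M24) :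
    Nat.card (sxB (h • S)) = Nat.card (sxB S) := by
  refine Nat.card_congr
    { toFun := fun y => ⟨h⁻¹ * y.1 * h, ?_⟩
      invFun := fun x => ⟨h * x.1 * h⁻¹, conj_mem_sxB hh x.2⟩
      left_inv := fun y => Subtype.ext (by simp [mul_assoc])
      right_inv := fun x => Subtype.ext (by simp [mul_assoc]) }
  have := conj_mem_sxB (M24.inv_mem hh) y.2
  rw [inv_smul_smul, inv_inv] at this
  exact this

theorem card_sxN_smul {S : Finset (Finset GolayPt)} {h : Equiv.Perm GolayPt} (hh : h ∈ M24) :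
    Nat.card (sxN (h • S)) = Nat.card (sxN S) := by
  refine Nat.card_congr
    { toFun := fun y => ⟨h⁻¹ * y.1 * h, ?_⟩
      invFun := fun x => ⟨h * x.1 * h⁻¹, conj_mem_sxN hh x.2⟩
      left_inv := fun y => Subtype.ext (by simp [mul_assoc])
      right_inv := fun x => Subtype.ext (by simp [mul_assoc]) }
  have := conj_mem_sxN (M24.inv_mem hh) y.2
  rw [inv_smul_smul, inv_inv] at this
  exact this

theorem smul_mem_iff_of_smul_eq' {g : Equiv.Perm GolayPt} {S : Finset (Finset GolayPt)}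
    (h : g • S = S) (t : Finset GolayPt) : g • t ∈ S ↔ t ∈ S := by
  have := Finset.smul_mem_smul_finset_iff (s := S) (b := t) g
  rw [h] at this
  exact this

/-- the action of the sextet stabiliser on the six tetrads -/
def sxRes (S : Finset (Finset GolayPt)) : ↥(sxH S) →* Equiv.Perm ↥S where
  toFun g := (MulAction.toPerm (g : Equiv.Perm GolayPt) : Equiv.Perm (Finset GolayPt)).subtypePerm
    (smul_mem_iff_of_smul_eq' (mem_stabilizer_iff.mp (Subgroup.mem_inf.mp g.2).2))
  map_one' := by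
    apply Equiv.ext; intro x; apply Subtype.ext
    exact one_smul (Equiv.Perm GolayPt) (x : Finset GolayPt)
  map_mul' a b := by
    apply Equiv.ext; intro x; apply Subtype.ext
    exact mul_smul (a : Equiv.Perm GolayPt) (b : Equiv.Perm GolayPt) (x : Finset GolayPt)

theorem sxRes_apply (S : Finset (Finset GolayPt)) (g : ↥(sxH S)) (t : ↥S) :
    ((sxRes S g t : ↥S) : Finset GolayPt) = (g : Equiv.Perm GolayPt) • (t : Finset GolayPt) := rfl

theorem sxRes_eq_one_iff (S : Finset (Finset GolayPt)) (g : ↥(sxH S)) :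
    sxRes S g = 1 ↔ (g : Equiv.Perm GolayPt) ∈ sxB S := by
  constructor
  · intro h
    refine ⟨(Subgroup.mem_inf.mp g.2).1, fun t ht => ?_⟩
    have := congrArg (fun e : Equiv.Perm ↥S => ((e ⟨t, ht⟩ : ↥S) : Finset GolayPt)) h
    exact this
  · intro h
    apply Equiv.ext; intro x; apply Subtype.ext
    exact h.2 x.1 x.2

theorem sxRes_ker_card (S : Finset (Finset GolayPt)) :
    Nat.card (sxRes S).ker = Nat.card (sxB S) := by
  have h3 : (sxRes S).ker.map (sxH S).subtype = sxB S := by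
    ext g
    rw [Subgroup.mem_map]
    constructor
    · rintro ⟨k, hk, rfl⟩
      exact (sxRes_eq_one_iff S k).mp (MonoidHom.mem_ker.mp hk)
    · intro hg
      exact ⟨⟨g, sxB_le_sxH S hg⟩, MonoidHom.mem_ker.mpr ((sxRes_eq_one_iff S _).mpr hg), rfl⟩
  rw [← h3]
  exact Nat.card_congr
    ((sxRes S).ker.equivMapOfInjective (sxH S).subtype (sxH S).subtype_injective).toEquiv

theorem orbit_sextet {S : Finset (Finset GolayPt)} (hSx : S ∈ sextets) :
    orbit ↥M24 S = sextets := by
  obtain ⟨hA, -⟩ := sext_census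
  have hSm : S ∈ orbit ↥M24 (sextetOf (fs (fldW 24 sextE (fld12 sextRG 0)))) := hA ▸ hSx
  rw [hA]
  exact (orbit_eq_iff (G := ↥M24)).mpr hSm

theorem sxH_card {S : Finset (Finset GolayPt)} (hSx : S ∈ sextets) :
    Nat.card (sxH S) = 138240 := by
  have h := card_eq_orbit_mul_inf (G := Equiv.Perm GolayPt) M24 S
  have horb : (orbit ↥M24 S).ncard = 1771 := by
    rw [orbit_sextet hSx]
    exact sextets_ncard'
  rw [card_M24, horb] at h
  unfold sxH
  omega

theorem card_perm_sextet {S : Finset (Finset GolayPt)} (hSx : S ∈ sextets) :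
    Nat.card (Equiv.Perm ↥S) = 720 := by
  rw [Nat.card_eq_fintype_card, Fintype.card_perm, Fintype.card_coe, hSx.1]
  decide

/-- `|sxH| = |sxB| * |range|` -/
theorem sxRes_card_mul (S : Finset (Finset GolayPt)) :
    Nat.card (sxB S) * Nat.card (sxRes S).range = Nat.card (sxH S) := by
  have h1 := Subgroup.card_mul_index (sxRes S).ker
  rw [Subgroup.index_ker, sxRes_ker_card] at h1
  exact h1

theorem sxRes_range_top {S : Finset (Finset GolayPt)} (hSx : S ∈ sextets)
    (hB : Nat.card (sxB S) = 192) : (sxRes S).range = ⊤ := by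
  apply Subgroup.eq_top_of_card_eq
  have h1 := sxRes_card_mul S
  rw [hB, sxH_card hSx] at h1
  rw [card_perm_sextet hSx]
  omega

theorem sxB_card_of_range {S : Finset (Finset GolayPt)} (hSx : S ∈ sextets)
    (hr : (sxRes S).range = ⊤) : Nat.card (sxB S) = 192 := by
  have h1 := sxRes_card_mul S
  rw [hr, sxH_card hSx, Subgroup.card_top, card_perm_sextet hSx] at h1
  omega

end Cfsg.Agent.H33
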