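import Cfsg.Agent.H33.IdxBase
import Cfsg.Agent.H9.M24d
import Cfsg.Agent.S5613
import Cfsg.Agent.S5610
import Cfsg.Agent.H33.SxGrp
import Cfsg.Agent.H33.ObjSextet

/-!
# Facts on `M24` used for the subgroups of index 759, 276, 1771, 253
-/

set_option autoImplicit false
set_option linter.unusedSectionVars false

namespace Cfsg.Agent.H33.Idx

open Cfsg Cfsg.Agent.H9 MulAction
open scoped Pointwise

theorem natCard_pt : Nat.card GolayPt = 24 := by
  rw [Nat.card_eq_fintype_card]; rfl

theorem fcard_pt : Fintype.card GolayPt = 24 := rfl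

/-! ### Pointwise stabilisers -/

theorem card_fix_mul (A : Finset GolayPt) (hA : A.card ≤ 5) :
    Nat.card (fixingSubgroup M24 (A : Set GolayPt)) * (Nat.choose 24 A.card * A.card.factorial)
      = 244823040 := by
  have h5 := m24_five_transitive
  have hk : IsMultiplyPretransitive M24 GolayPt (A : Set GolayPt).ncard := by
    rw [Set.ncard_coe_finset]
    exact isMultiplyPretransitive_of_le (n := 5) hA (by rw [natCard_pt]; norm_num)
  have h1 := IsMultiplyPretransitive.index_of_fixingSubgroup_eq (A : Set GolayPt) hk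
  rw [Set.ncard_coe_finset, natCard_pt] at h1
  rw [← h1, Subgroup.card_mul_index, card_M24]

theorem card_fix2 {A : Finset GolayPt} (hA : A.card = 2) :
    Nat.card (fixingSubgroup M24 (A : Set GolayPt)) = 443520 := by
  have h := card_fix_mul A (by omega)
  rw [hA] at h
  have : Nat.choose 24 2 * Nat.factorial 2 = 552 := by decide
  rw [this] at h
  omega

theorem card_fix3 {A : Finset GolayPt} (hA : A.card = 3) :
    Nat.card (fixingSubgroup M24 (A : Set GolayPt)) = 20160 := by
  have h := card_fix_mul A (by omega)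
  rw [hA] at h
  have : Nat.choose 24 3 * Nat.factorial 3 = 12144 := by decide
  rw [this] at h
  omega

theorem card_fix4 {A : Finset GolayPt} (hA : A.card = 4) :
    Nat.card (fixingSubgroup M24 (A : Set GolayPt)) = 960 := by
  have h := card_fix_mul A (by omega)
  rw [hA] at h
  have : Nat.choose 24 4 * Nat.factorial 4 = 255024 := by decide
  rw [this] at h
  omega

theorem card_fix5 {A : Finset GolayPt} (hA : A.card = 5) :
    Nat.card (fixingSubgroup M24 (A : Set GolayPt)) = 48 := by
  have h := card_fix_mul A (by omega)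
  rw [hA] at h
  have : Nat.choose 24 5 * Nat.factorial 5 = 5100480 := by decide
  rw [this] at h
  omega

/-- a subgroup fixing the points of `A` has order dividing that of the pointwise stabiliser -/
theorem card_dvd_of_fixes {V : Subgroup M24} {A : Finset GolayPt}
    (hV : ∀ v ∈ V, ∀ a ∈ A, v • a = a) :
    Nat.card V ∣ Nat.card (fixingSubgroup M24 (A : Set GolayPt)) :=
  Subgroup.card_dvd_of_le (fun v hv => (mem_fixingSubgroup_iff M24).mpr fun y hy =>
    hV v hv y (Finset.mem_coe.mp hy))

/-- the pointwise stabiliser of at most four points is transitive on the other points -/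
theorem fix_trans (A : Finset GolayPt) (hA : A.card ≤ 4) {x y : GolayPt} (hx : x ∉ A)
    (hy : y ∉ A) : ∃ g ∈ fixingSubgroup M24 (A : Set GolayPt), g • x = y := by
  have h5 := m24_five_transitive
  have hk : IsMultiplyPretransitive M24 GolayPt ((A : Set GolayPt).ncard + 1) := by
    rw [Set.ncard_coe_finset]
    exact isMultiplyPretransitive_of_le (n := 5) (by omega) (by rw [natCard_pt]; norm_num)
  have h1 := SubMulAction.ofFixingSubgroup.isMultiplyPretransitive M24 (A : Set GolayPt)
    (m := 1) (n := (A : Set GolayPt).ncard + 1) rfl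
  rw [is_one_pretransitive_iff] at h1
  obtain ⟨g, hg⟩ := h1.exists_smul_eq
    (⟨x, by rw [SubMulAction.mem_ofFixingSubgroup_iff]; simpa using hx⟩ :
      SubMulAction.ofFixingSubgroup M24 (A : Set GolayPt))
    ⟨y, by rw [SubMulAction.mem_ofFixingSubgroup_iff]; simpa using hy⟩
  refine ⟨g, g.2, ?_⟩
  have := congrArg Subtype.val hg
  exact this

/-! ### Fixed points of elements of order 5, 7, 11 -/

theorem fixF_card_le {g : M24} (hg : ¬ orderOf g ∣ 48) : (fixF g : Finset GolayPt).card ≤ 4 := by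
  by_contra hcon
  obtain ⟨A, hA, hA5⟩ := Finset.exists_subset_card_eq (show 5 ≤ (fixF g : Finset GolayPt).card by
    omega)
  have h1 : g ∈ fixingSubgroup M24 (A : Set GolayPt) :=
    (mem_fixingSubgroup_iff M24).mpr fun y hy => mem_fixF.mp (hA (Finset.mem_coe.mp hy))
  have h2 := orderOf_dvd_natCard (⟨g, h1⟩ : fixingSubgroup M24 (A : Set GolayPt))
  rw [card_fix5 hA5, Subgroup.orderOf_mk] at h2
  exact hg h2

theorem fixF_card_mod {g : M24} {p : ℕ} [Fact p.Prime] (hg : orderOf g = p) :
    (fixF g : Finset GolayPt).card ≡ 24 [MOD p] := by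
  have h1 := fix_mod (g := g) (p := p) (by rw [← hg]; exact pow_orderOf_eq_one g)
    (A := (Finset.univ : Finset GolayPt)) (fun a _ => Finset.mem_univ _)
  rwa [Finset.univ_inter, Finset.card_univ, fcard_pt] at h1

theorem fixF_card_five {g : M24} (hg : orderOf g = 5) : (fixF g : Finset GolayPt).card = 4 := by
  haveI : Fact (Nat.Prime 5) := ⟨by norm_num⟩
  have h1 := fixF_card_le (g := g) (by rw [hg]; norm_num)
  have h2 := fixF_card_mod hg
  unfold Nat.ModEq at h2
  omega

theorem fixF_card_seven {g : M24} (hg : orderOf g = 7) : (fixF g : Finset GolayPt).card = 3 := by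
  haveI : Fact (Nat.Prime 7) := ⟨by norm_num⟩
  have h1 := fixF_card_le (g := g) (by rw [hg]; norm_num)
  have h2 := fixF_card_mod hg
  unfold Nat.ModEq at h2
  omega

theorem fixF_card_eleven {g : M24} (hg : orderOf g = 11) :
    (fixF g : Finset GolayPt).card = 2 := by
  haveI : Fact (Nat.Prime 11) := ⟨by norm_num⟩
  have h1 := fixF_card_le (g := g) (by rw [hg]; norm_num)
  have h2 := fixF_card_mod hg
  unfold Nat.ModEq at h2
  omega

/-! ### Octads -/

theorem smul_octad (g : M24) {O : Finset GolayPt} (hO : O ∈ octads) : g • O ∈ octads :=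
  smul_mem_octads g.2 hO

theorem octad_card {O : Finset GolayPt} (hO : O ∈ octads) : O.card = 8 := hO.2

/-- a subgroup preserving at least five points of an octad preserves the octad -/
theorem octad_inv {V : Subgroup M24} {O R : Finset GolayPt} (hO : O ∈ octads) (hR : R ⊆ O)
    (h5 : 5 ≤ R.card) (hV : ∀ v ∈ V, ∀ a ∈ R, v • a ∈ R) : ∀ v ∈ V, ∀ a ∈ O, v • a ∈ O := by
  intro v hv a ha
  obtain ⟨S, hS, hS5⟩ := Finset.exists_subset_card_eq h5
  have h1 : v • R = R := smul_finset_eq (hV v hv)
  have h2 : v • O = O := by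
    refine octad_unique (smul_octad v hO) hO hS5 ?_ (hS.trans hR)
    intro s hs
    have h3 : s ∈ v • R := by rw [h1]; exact hS hs
    obtain ⟨r, hr, rfl⟩ := Finset.mem_smul_finset.mp h3
    exact Finset.smul_mem_smul_finset (hR hr)
  exact mem_of_smul_finset_eq h2 ha

/-- the pointwise stabiliser of an octad has order 16 -/
theorem card_K {O : Finset GolayPt} (hO : O ∈ octads) :
    Nat.card (fixingSubgroup M24 (O : Set GolayPt)) = 16 := by
  have h1 := (octad_fixer hO).1
  have h2 : (fixingSubgroup M24 (O : Set GolayPt)).map M24.subtype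
      = M24 ⊓ fixingSubgroup (Equiv.Perm GolayPt) (O : Set GolayPt) := by
    ext g
    rw [Subgroup.mem_map, Subgroup.mem_inf, mem_fixingSubgroup_iff]
    constructor
    · rintro ⟨k, hk, rfl⟩
      exact ⟨k.2, fun y hy => (mem_fixingSubgroup_iff M24).mp hk y hy⟩
    · rintro ⟨hg, hg'⟩
      exact ⟨⟨g, hg⟩, (mem_fixingSubgroup_iff M24).mpr fun y hy => hg' y hy, rfl⟩
  rw [← h2] at h1
  rw [← h1]
  exact Nat.card_congr ((fixingSubgroup M24 (O : Set GolayPt)).equivMapOfInjective M24.subtype
    M24.subtype_injective).toEquiv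

theorem isPGroup_K {O : Finset GolayPt} (hO : O ∈ octads) :
    IsPGroup 2 (fixingSubgroup M24 (O : Set GolayPt)) :=
  IsPGroup.of_card (n := 4) (by rw [card_K hO]; norm_num)

theorem pt5_not_mem : gPt 5 ∉ fs 0x149f := by
  rw [mem_fs, gIdx_gPt (by norm_num)]
  decide

/-- the pointwise stabiliser of the standard octad is transitive on the other 16 points -/
theorem K0_orbit {x : GolayPt} (hx : x ∉ fs 0x149f) :
    ∃ g ∈ Stab [7, 4, 3, 2, 1, 0], g (gPt 5) = x := by
  have h1 := ncard_orbit_of_levelOK m24_lvl6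
  rw [m24_orb6] at h1
  have h2 : {p : GolayPt | ∃ g ∈ Stab [7, 4, 3, 2, 1, 0], g (gPt 5) = p}
      ⊆ (((fs 0x149f)ᶜ : Finset GolayPt) : Set GolayPt) := by
    rintro p ⟨g, hg, rfl⟩
    rw [Finset.mem_coe, Finset.mem_compl]
    intro hcon
    rw [← octad0_fixer_eq, Subgroup.mem_inf, mem_fixingSubgroup_iff] at hg
    have h3 := hg.2 _ (Finset.mem_coe.mpr hcon)
    have h4 : g (gPt 5) = gPt 5 := g.injective h3
    rw [h4] at hcon
    exact pt5_not_mem hcon
  have h3 : (((fs 0x149f)ᶜ : Finset GolayPt) : Set GolayPt).ncard = 16 := by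
    rw [Set.ncard_coe_finset, Finset.card_compl, fcard_pt, octad0_mem.2]
  have h4 := Set.eq_of_subset_of_ncard_le h2 (by rw [h3, h1]) (Set.toFinite _)
  have h5 : x ∈ (((fs 0x149f)ᶜ : Finset GolayPt) : Set GolayPt) := by
    rw [Finset.mem_coe, Finset.mem_compl]
    exact hx
  rw [← h4] at h5
  exact h5

/-- the pointwise stabiliser of an octad is transitive on the other 16 points -/
theorem K_trans {O : Finset GolayPt} (hO : O ∈ octads) {x y : GolayPt} (hx : x ∉ O)
    (hy : y ∉ O) : ∃ k ∈ fixingSubgroup M24 (O : Set GolayPt), k • x = y := by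
  obtain ⟨h, hh, rfl⟩ := exists_smul_octad octad0_mem hO
  have hx' : h⁻¹ x ∉ fs 0x149f := by
    intro hcon
    apply hx
    have := Finset.smul_mem_smul_finset (a := h) hcon
    simpa using this
  have hy' : h⁻¹ y ∉ fs 0x149f := by
    intro hcon
    apply hy
    have := Finset.smul_mem_smul_finset (a := h) hcon
    simpa using this
  obtain ⟨g₁, hg₁, hg₁x⟩ := K0_orbit hx'
  obtain ⟨g₂, hg₂, hg₂y⟩ := K0_orbit hy'
  have hg₁' := hg₁
  have hg₂' := hg₂
  rw [← octad0_fixer_eq, Subgroup.mem_inf, mem_fixingSubgroup_iff] at hg₁' hg₂'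
  refine ⟨⟨h * g₂ * g₁⁻¹ * h⁻¹, mul_mem (mul_mem (mul_mem hh hg₂'.1) (inv_mem hg₁'.1))
    (inv_mem hh)⟩, ?_, ?_⟩
  · rw [mem_fixingSubgroup_iff]
    intro z hz
    rw [Finset.mem_coe, Finset.mem_smul_finset] at hz
    obtain ⟨w, hw, rfl⟩ := hz
    have hw1 : g₁ w = w := hg₁'.2 w (Finset.mem_coe.mpr hw)
    have hw2 : g₂ w = w := hg₂'.2 w (Finset.mem_coe.mpr hw)
    have hw3 : g₁⁻¹ w = w := by rw [Equiv.Perm.inv_eq_iff_eq, hw1]
    show (h * g₂ * g₁⁻¹ * h⁻¹) (h • w) = h • w
    simp [Equiv.Perm.mul_apply, hw3, hw2]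
  · show (h * g₂ * g₁⁻¹ * h⁻¹) x = y
    simp only [Equiv.Perm.mul_apply]
    rw [← hg₁x]
    simp [hg₂y]

/-- the pointwise stabiliser of `g • O` is the conjugate of that of `O` -/
theorem conj_mem_K {O : Finset GolayPt} {g k : M24}
    (hk : k ∈ fixingSubgroup M24 ((g • O : Finset GolayPt) : Set GolayPt)) :
    g⁻¹ * k * g ∈ fixingSubgroup M24 (O : Set GolayPt) := by
  rw [mem_fixingSubgroup_iff] at hk ⊢
  intro y hy
  have h1 := hk (g • y) (Finset.mem_coe.mpr (Finset.smul_mem_smul_finset (Finset.mem_coe.mp hy)))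
  rw [mul_smul, mul_smul, h1, inv_smul_smul]

/-! ### Orders of stabilisers -/

theorem card_stab_octad' {O : Finset GolayPt} (hO : O ∈ octads) :
    Nat.card (MulAction.stabilizer M24 O) = 322560 :=
  Cfsg.Agent.S5613.card_stab_octad O hO

theorem card_stab_sextet {S : Finset (Finset GolayPt)} (hS : S ∈ sextets) :
    Nat.card (MulAction.stabilizer M24 S) = 138240 := by
  have h1 : Nat.card M24
      = Nat.card (MulAction.orbit M24 S) * Nat.card (MulAction.stabilizer M24 S) := by
    rw [← Nat.card_prod]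
    exact Nat.card_congr (MulAction.orbitProdStabilizerEquivGroup M24 S).symm
  rw [card_M24, orbit_sextet hS, Nat.card_coe_set_eq, sextets_ncard'] at h1
  omega

/-- the stabiliser of an octad and a trio has order at most 21504 -/
theorem card_stab_octad_trio {O : Finset GolayPt} (hO : O ∈ octads)
    {T : Finset (Finset GolayPt)} (hT : T ∈ trios) :
    Nat.card (MulAction.stabilizer M24 O ⊓ MulAction.stabilizer M24 T : Subgroup M24)
      ≤ 21504 := by
  obtain ⟨⟨X₁, _, X₂, _, X₃, _, h1, h2, h3, hall⟩, -⟩ := Cfsg.Agent.S5610.result O hO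
  have h4 := card_eq_orbit_mul_inf (MulAction.stabilizer M24 O) T
  rw [card_stab_octad' hO] at h4
  have h5 : 15 ≤ (MulAction.orbit (MulAction.stabilizer M24 O) T).ncard := by
    rw [hall] at hT
    rcases hT with (hT | hT) | hT
    · rw [MulAction.orbit_eq_iff.mpr hT, h1]
    · rw [MulAction.orbit_eq_iff.mpr hT, h2]; norm_num
    · rw [MulAction.orbit_eq_iff.mpr hT, h3]; norm_num
  nlinarith

end Cfsg.Agent.H33.Idx
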