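import Cfsg.Agent.H33.IdxB

/-!
# Subgroups of odd index of `M24`: index 759 and 253
-/

set_option autoImplicit false
set_option linter.unusedSectionVars false

namespace Cfsg.Agent.H33.Idx

open Cfsg Cfsg.Agent.H9 MulAction
open scoped Pointwise

/-- a subgroup of odd index contains the pointwise stabiliser of some octad -/
theorem exists_K_le (H : Subgroup M24) (hodd : ¬ 2 ∣ H.index) :
    ∃ O ∈ octads, fixingSubgroup M24 (O : Set GolayPt) ≤ H := by
  haveI : Fact (Nat.Prime 2) := ⟨by norm_num⟩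
  obtain ⟨g, hg⟩ := exists_conj_le H (fixingSubgroup M24 ((fs 0x149f : Finset GolayPt) :
    Set GolayPt)) hodd (isPGroup_K octad0_mem)
  refine ⟨g⁻¹ • fs 0x149f, smul_octad g⁻¹ octad0_mem, fun k hk => ?_⟩
  have h1 := hg _ (conj_mem_K hk)
  have h2 : g⁻¹ * (g⁻¹⁻¹ * k * g⁻¹) * g = k := by group
  rwa [h2] at h1

/-- the orbit of a point outside `O` under a subgroup containing the pointwise stabiliser of
`O` contains the complement of `O` -/
theorem compl_subset_orbF {V : Subgroup M24} {O : Finset GolayPt} (hO : O ∈ octads)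
    (hK : fixingSubgroup M24 (O : Set GolayPt) ≤ V) {y : GolayPt} (hy : y ∉ O) :
    Oᶜ ⊆ orbF V y := by
  intro z hz
  obtain ⟨k, hk, hkz⟩ := K_trans hO hy (Finset.mem_compl.mp hz)
  exact mem_orbF.mpr ⟨k, hK hk, hkz⟩

theorem compl_orbF_subset {V : Subgroup M24} {O : Finset GolayPt} (hO : O ∈ octads)
    (hK : fixingSubgroup M24 (O : Set GolayPt) ≤ V) {y : GolayPt} (hy : y ∉ O) :
    (orbF V y)ᶜ ⊆ O := by
  intro z hz
  by_contra hcon
  exact (Finset.mem_compl.mp hz) (compl_subset_orbF hO hK hy (Finset.mem_compl.mpr hcon))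

theorem card_compl' (A : Finset GolayPt) : Aᶜ.card = 24 - A.card := by
  rw [Finset.card_compl, fcard_pt]

theorem card_le_24 (A : Finset GolayPt) : A.card ≤ 24 := by
  rw [← fcard_pt]; exact Finset.card_le_univ _

/-- the orbit is the complement of `O` (and then `O` is invariant), or has at least 20 points -/
theorem orbF_eq_compl_or {V : Subgroup M24} {O : Finset GolayPt} (hO : O ∈ octads)
    (hK : fixingSubgroup M24 (O : Set GolayPt) ≤ V) {y : GolayPt} (hy : y ∉ O) :
    (∀ v ∈ V, ∀ a ∈ O, v • a ∈ O) ∨ 20 ≤ (orbF V y).card := by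
  by_cases h : ((orbF V y)ᶜ).card ≤ 4
  · right
    rw [card_compl'] at h
    have := card_le_24 (orbF V y)
    omega
  · left
    have hinv := inv_compl (H := V) (A := orbF V y) (fun h hh a ha => smul_mem_orbF hh ha)
    exact octad_inv hO (compl_orbF_subset hO hK hy) (by omega) hinv

/-- if `O` is invariant the orbit of a point outside is the complement -/
theorem orbF_eq_compl {V : Subgroup M24} {O : Finset GolayPt} (hO : O ∈ octads)
    (hK : fixingSubgroup M24 (O : Set GolayPt) ≤ V) {y : GolayPt} (hy : y ∉ O)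
    (hinv : ∀ v ∈ V, ∀ a ∈ O, v • a ∈ O) : orbF V y = Oᶜ :=
  Finset.Subset.antisymm (orbF_subset (inv_compl hinv) (Finset.mem_compl.mpr hy))
    (compl_subset_orbF hO hK hy)

/-- a subgroup preserving a set `R` of points -/
theorem card_le_of_inv {V : Subgroup M24} {R : Finset GolayPt}
    (hR : ∀ v ∈ V, ∀ a ∈ R, v • a ∈ R) :
    Nat.card V ≤ R.card.factorial * Nat.card (fixingSubgroup M24 (R : Set GolayPt)) :=
  (card_le_factorial_mul R.card R V rfl hR).trans
    (Nat.mul_le_mul_left _ (Subgroup.card_le_of_le inf_le_right))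

/-- a subgroup preserving a set `R` of points and fixing the point `α` of `R` -/
theorem card_le_of_inv_erase {V : Subgroup M24} {R : Finset GolayPt} {α : GolayPt}
    (hα : ∀ v ∈ V, v • α = α) (hR : ∀ v ∈ V, ∀ a ∈ R, v • a ∈ R) :
    Nat.card V ≤ (R.erase α).card.factorial * Nat.card (fixingSubgroup M24 (R : Set GolayPt)) := by
  refine (card_le_factorial_mul (R.erase α).card (R.erase α) V rfl (inv_erase hR hα)).trans
    (Nat.mul_le_mul_left _ (Subgroup.card_le_of_le ?_))
  intro g hg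
  rw [Subgroup.mem_inf, mem_fixingSubgroup_iff] at hg
  rw [mem_fixingSubgroup_iff]
  intro z hz
  by_cases hzα : z = α
  · rw [hzα]; exact hα g hg.1
  · exact hg.2 z (Finset.mem_coe.mpr (Finset.mem_erase.mpr ⟨hzα, Finset.mem_coe.mp hz⟩))

/-- a transitive subgroup `H` containing the pointwise stabiliser of an octad `O` such that the
stabiliser in `H` of a point of `O` preserves `O` permutes a trio, hence has order at most
`64512` -/
theorem trio_bound {H : Subgroup M24} (htr : ∀ y z : GolayPt, ∃ h ∈ H, h • y = z)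
    {O : Finset GolayPt} (hO : O ∈ octads) (hK : fixingSubgroup M24 (O : Set GolayPt) ≤ H)
    {α : GolayPt} (hα : α ∈ O) (hinv : ∀ v ∈ ptS H α, ∀ a ∈ O, v • a ∈ O) :
    Nat.card H ≤ 64512 := by
  classical
  -- conjugation
  have hconj : ∀ h ∈ H, ∀ Q : Finset GolayPt, fixingSubgroup M24 (Q : Set GolayPt) ≤ H →
      fixingSubgroup M24 ((h • Q : Finset GolayPt) : Set GolayPt) ≤ H := by
    intro h hh Q hQ k hk
    have h1 := hQ (conj_mem_K hk)
    have h2 : h * (h⁻¹ * k * h) * h⁻¹ = k := by group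
    rw [← h2]
    exact mul_mem (mul_mem hh h1) (inv_mem hh)
  -- uniqueness at `α`
  have huα : ∀ Q : Finset GolayPt, Q ∈ octads → α ∈ Q →
      fixingSubgroup M24 (Q : Set GolayPt) ≤ H → Q = O := by
    intro Q hQ hαQ hKQ
    by_contra hne
    have h1 : ∃ p ∈ O, p ∉ Q := by
      by_contra hcon
      simp only [not_exists, not_and, not_not] at hcon
      exact hne (Finset.eq_of_subset_of_card_le hcon (by rw [hQ.2, hO.2])).symm
    obtain ⟨p, hpO, hpQ⟩ := h1
    have h2 : ∃ q, q ∉ O ∪ Q := by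
      by_contra hcon
      simp only [not_exists, not_not] at hcon
      have h3 : O ∪ Q = Finset.univ := Finset.eq_univ_iff_forall.mpr hcon
      have h4 := Finset.card_union_le O Q
      rw [h3, Finset.card_univ, fcard_pt, hO.2, hQ.2] at h4
      omega
    obtain ⟨q, hq⟩ := h2
    rw [Finset.mem_union, not_or] at hq
    obtain ⟨k, hk, hkp⟩ := K_trans hQ hpQ hq.2
    have h3 : k ∈ ptS H α := mem_ptS.mpr ⟨hKQ hk,
      (mem_fixingSubgroup_iff M24).mp hk α (Finset.mem_coe.mpr hαQ)⟩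
    have h4 := hinv k h3 p hpO
    rw [hkp] at h4
    exact hq.1 h4
  -- uniqueness in general
  have hu : ∀ (x : GolayPt) (Q₁ Q₂ : Finset GolayPt), Q₁ ∈ octads → Q₂ ∈ octads → x ∈ Q₁ → x ∈ Q₂ →
      fixingSubgroup M24 (Q₁ : Set GolayPt) ≤ H → fixingSubgroup M24 (Q₂ : Set GolayPt) ≤ H →
      Q₁ = Q₂ := by
    intro x Q₁ Q₂ hQ₁ hQ₂ hx₁ hx₂ hK₁ hK₂
    obtain ⟨h, hh, rfl⟩ := htr α x
    have h1 := huα (h⁻¹ • Q₁) (smul_octad _ hQ₁) (by
      have := Finset.smul_mem_smul_finset (a := h⁻¹) hx₁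
      rwa [inv_smul_smul] at this) (hconj _ (inv_mem hh) _ hK₁)
    have h2 := huα (h⁻¹ • Q₂) (smul_octad _ hQ₂) (by
      have := Finset.smul_mem_smul_finset (a := h⁻¹) hx₂
      rwa [inv_smul_smul] at this) (hconj _ (inv_mem hh) _ hK₂)
    exact MulAction.injective h⁻¹ (h1.trans h2.symm)
  -- the trio
  set T : Finset (Finset GolayPt) := orbF H O with hT
  have hTmem : ∀ Q ∈ T, Q ∈ octads ∧ fixingSubgroup M24 (Q : Set GolayPt) ≤ H := by
    intro Q hQ
    obtain ⟨h, hh, rfl⟩ := mem_orbF.mp hQ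
    exact ⟨smul_octad h hO, hconj h hh O hK⟩
  have hdisj : ∀ Q₁ ∈ T, ∀ Q₂ ∈ T, Q₁ ≠ Q₂ → Disjoint Q₁ Q₂ := by
    intro Q₁ h₁ Q₂ h₂ hne
    rw [Finset.disjoint_left]
    intro x hx₁ hx₂
    exact hne (hu x Q₁ Q₂ (hTmem Q₁ h₁).1 (hTmem Q₂ h₂).1 hx₁ hx₂ (hTmem Q₁ h₁).2 (hTmem Q₂ h₂).2)
  have hcover : T.biUnion id = Finset.univ := by
    ext x
    simp only [Finset.mem_biUnion, id, Finset.mem_univ, iff_true]
    obtain ⟨h, hh, rfl⟩ := htr α x
    exact ⟨h • O, mem_orbF.mpr ⟨h, hh, rfl⟩, Finset.smul_mem_smul_finset hα⟩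
  have hT3 : T.card = 3 := by
    have h1 := Finset.card_biUnion (s := T) (t := id) (fun Q₁ h₁ Q₂ h₂ hne => hdisj Q₁ h₁ Q₂ h₂ hne)
    rw [hcover, Finset.card_univ, fcard_pt] at h1
    have h2 : ∑ u ∈ T, (id u : Finset GolayPt).card = ∑ _u ∈ T, 8 :=
      Finset.sum_congr rfl (fun Q hQ => (hTmem Q hQ).1.2)
    rw [h2, Finset.sum_const, smul_eq_mul] at h1
    omega
  have hTtrio : T ∈ trios := ⟨hT3, fun Q hQ => (hTmem Q hQ).1, hdisj⟩
  -- counting
  have h1 := card_eq_orbF_mul H O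
  rw [← hT, hT3] at h1
  have h2 : ptS H O ≤ MulAction.stabilizer M24 O ⊓ MulAction.stabilizer M24 T := by
    intro g hg
    obtain ⟨hg1, hg2⟩ := mem_ptS.mp hg
    rw [Subgroup.mem_inf, MulAction.mem_stabilizer_iff, MulAction.mem_stabilizer_iff]
    exact ⟨hg2, smul_finset_eq (fun Q hQ => smul_mem_orbF hg1 hQ)⟩
  have h3 := (Subgroup.card_le_of_le h2).trans (card_stab_octad_trio hO hTtrio)
  omega

/-- a transitive subgroup of order divisible by 5 and greater than 92160 has no point stabiliser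
with blocks of size 3 -/
theorem block3_false {H : Subgroup M24} (htr : ∀ y z : GolayPt, ∃ h ∈ H, h • y = z)
    (hcard : 92160 < Nat.card H) (h5 : 5 ∣ Nat.card H) {α : GolayPt}
    (hB : (Bm H 2 α).card = 3) : False := by
  haveI : Fact (Nat.Prime 5) := ⟨by norm_num⟩
  have hc : ∀ x : GolayPt, (Bm H 2 x).card = 3 := fun x => by
    rw [Bm_card_of_trans htr 2 α x, hB]
  have hV : ∀ x : GolayPt, 3840 < Nat.card (ptS H x) := fun x => by
    have := card_of_trans htr x
    rw [fcard_pt] at this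
    omega
  have key : ∀ x y : GolayPt, y ∈ Bm H 2 x → Bm H 2 y = Bm H 2 x := by
    intro x y hy
    by_cases hyx : y = x
    · rw [hyx]
    apply Finset.eq_of_subset_of_card_le _ (by rw [hc, hc])
    intro z' hz'
    by_contra hz'x
    exfalso
    -- the stabiliser of `x` and `y`
    have h1 := card_eq_orbF_mul (ptS H x) y
    have h1' : (orbF (ptS H x) y).card ≤ 2 := mem_Bm.mp hy
    have hWy : ptS (ptS H x) y ≤ ptS H y := ptS_mono (ptS_le H x) y
    have h2 := card_eq_orbF_mul (ptS (ptS H x) y) z'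
    have h2' : (orbF (ptS (ptS H x) y) z').card ≤ 2 :=
      (Finset.card_le_card (orbF_mono hWy z')).trans (mem_Bm.mp hz')
    -- the stabiliser of `x`, `y`, `z'` fixes four points
    set W' := ptS (ptS (ptS H x) y) z' with hW'
    have hW'x : W' ≤ ptS H x := (ptS_le _ z').trans (ptS_le _ y)
    have hfx : ∀ w ∈ W', w • x = x := fun w hw => (mem_ptS.mp (hW'x hw)).2
    have hfy : ∀ w ∈ W', w • y = y := fun w hw => (mem_ptS.mp (ptS_le _ z' hw)).2
    have hfz : ∀ w ∈ W', w • z' = z' := fun w hw => (mem_ptS.mp hw).2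
    have hinvB : ∀ w ∈ W', ∀ a ∈ Bm H 2 x, w • a ∈ Bm H 2 x :=
      fun w hw a ha => Bm_inv H 2 x w (hW'x hw) a ha
    have hinvR := inv_erase (inv_erase hinvB hfx) hfy
    have hxB : x ∈ Bm H 2 x := self_mem_Bm H (by norm_num) x
    have hR1 : (((Bm H 2 x).erase x).erase y).card = 1 := by
      rw [Finset.card_erase_of_mem (Finset.mem_erase.mpr ⟨hyx, hy⟩),
        Finset.card_erase_of_mem hxB, hc]
    have h3 := card_le_factorial_mul 1 _ W' hR1 hinvR
    have h4 : Nat.card (W' ⊓ fixingSubgroup M24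
        ((((Bm H 2 x).erase x).erase y : Finset GolayPt) : Set GolayPt) : Subgroup M24) ∣ 960 := by
      rw [← card_fix4 (A := insert z' (Bm H 2 x)) (by
        rw [Finset.card_insert_of_notMem hz'x, hc])]
      apply card_dvd_of_fixes
      intro v hv a ha
      rw [Subgroup.mem_inf, mem_fixingSubgroup_iff] at hv
      rw [Finset.mem_insert] at ha
      rcases ha with rfl | ha
      · exact hfz v hv.1
      · by_cases hax : a = x
        · rw [hax]; exact hfx v hv.1
        · by_cases hay : a = y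
          · rw [hay]; exact hfy v hv.1
          · exact hv.2 a (Finset.mem_coe.mpr
              (Finset.mem_erase.mpr ⟨hay, Finset.mem_erase.mpr ⟨hax, ha⟩⟩))
    have h5' := Nat.le_of_dvd (by norm_num) h4
    have h6 := hV x
    have hf1 : Nat.factorial 1 = 1 := rfl
    rw [hf1] at h3
    have h7 : Nat.card (ptS (ptS H x) y) ≤ 2 * Nat.card W' := by
      rw [h2]; exact Nat.mul_le_mul_right _ h2'
    have h8 : Nat.card (ptS H x) ≤ 2 * Nat.card (ptS (ptS H x) y) := by
      rw [h1]; exact Nat.mul_le_mul_right _ h1'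
    omega
  obtain ⟨f, hf, hfo⟩ := exists_orderOf_eq H 5 h5
  have hdiv := block_dvd (H := H) (m := 2) (c := 3) (by norm_num) key hc hf (p := 5)
    (by rw [← hfo]; exact pow_orderOf_eq_one f) (by norm_num)
  rw [fixF_card_five hfo] at hdiv
  omega

end Cfsg.Agent.H33.Idx
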