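import Cfsg.Agent.H33.LHS

/-!
# An involution of the stabiliser of the standard pair, without fixed points on the 100 vectors
(helper33; generated, checked by the kernel)
-/

set_option autoImplicit false
set_option maxRecDepth 100000

namespace Cfsg.Agent.H33

open Cfsg Cfsg.Agent.H9 Cfsg.Agent.H93

/-- the word -/
def LInvW : List (ℕ × ℕ) :=
  [(0x9ddc428cf1b31a811950ad1724bc20, 0x0), (0x8cc29b429230c85ab5ee3dc4c42960, 0x0), (0x710d25a4b6ace8f55c6d8811008987, 0x5c0fcc), (0, 0), (0x7d2a9859451056768e44999d74440c, 0x27afd7), (0, 0), (0xbd96f4cd85a8e4e511b141e0111814, 0x733a98), (0xb91701a02f51da5626ce8ca74154c0, 0x0), (0x710d25a4b6ace8f55c6d8811008987, 0x5c0fcc), (0, 0), (0x7d2a9859451056768e44999d74440c, 0x27afd7), (0, 0), (0xbd96f4cd85a8e4e511b141e0111814, 0x733a98), (0x4c8c19d2c22a1507dda323a2765560, 0x0), (0x8164678c4a4266d59ed1a12b773020, 0x0), (0x8164678c4a4266d59ed1a12b773020, 0x0), (0x9ddc428cf1b31a811950ad1724bc20, 0x0), (0x8cc29b429230c85ab5ee3dc4c42960,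 0x0), (0x710d25a4b6ace8f55c6d8811008987, 0x5c0fcc), (0, 0), (0x7d2a9859451056768e44999d74440c, 0x27afd7), (0, 0), (0xbd96f4cd85a8e4e511b141e0111814, 0x733a98), (0xb91701a02f51da5626ce8ca74154c0, 0x0), (0x710d25a4b6ace8f55c6d8811008987, 0x5c0fcc), (0, 0), (0x7d2a9859451056768e44999d74440c, 0x27afd7), (0, 0), (0xbd96f4cd85a8e4e511b141e0111814, 0x733a98), (0x4c8c19d2c22a1507dda323a2765560, 0x0), (0x8164678c4a4266d59ed1a12b773020, 0x0), (0x8164678c4a4266d59ed1a12b773020, 0x0), (0x9ddc428cf1b31a811950ad1724bc20, 0x0), (0x8cc29b429230c85ab5ee3dc4c42960, 0x0), (0x710d25a4b6ace8f55c6d8811008987, 0x5c0fcc), (0, 0), (0x7d2a9859451056768e44999d74440c, 0x27afd7), (0, 0), (0xbd96f4cd85a8e4e511b141e0111814, 0x733a98), (0xb91701a02f51da5626ce8ca74154c0, 0x0), (0x710d25a4b6ace8f55c6d8811008987, 0x5c0fcc), (0, 0), (0x7d2a9859451056768e44999d74440c, 0x27afd7), (0, 0), (0xbd96f4cd85a8e4e511b141e0111814, 0x733a98), (0x4c8c19d2c22a1507dda323a2765560, 0x0), (0x8164678c4a4266d59ed1a12b773020,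 0x0), (0x8164678c4a4266d59ed1a12b773020, 0x0)]

/-- the packed vector with the single nonzero coordinate 8 at the point of index `i` -/
def frV (i : ℕ) : ℕ :=
  Nat.add 0x808080808080808080808080808080808080808080808080 (Nat.shiftLeft 8 (Nat.mul 8 i))

theorem frV_f8 : allB (fun i => allB (fun j =>
    Nat.beq (f8 (frV i) j) (bif Nat.beq j i then 136 else 128)) 24) 24 = true := by decide +kernel

theorem LInvW_ok : genOKL L100P LInvW = true := by decide +kernel

theorem LInvW_sq : allB (fun i => runOK LInvW (frV i) && (runOK LInvW (runW LInvW (frV i)) &&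
    Nat.beq (runW LInvW (runW LInvW (frV i))) (frV i))) 24 = true := by decide +kernel

theorem LInvW_free : allB (fun j => runOK LInvW (fldW 192 L100E j) &&
    !(allB (fun i => Nat.beq (f8 (runW LInvW (fldW 192 L100E j)) i) (f8 (fldW 192 L100E j) i)) 24))
    100 = true := by decide +kernel

end Cfsg.Agent.H33
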