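import Mathlib
import Cfsg.Agent.H33.LInvW

/-!
An involution of the stabiliser of two vectors of the second shell with inner product `-32`
which fixes none of the 100 vectors.
-/

set_option autoImplicit false

namespace Cfsg.Agent.H33

open Cfsg Cfsg.Agent.H9 Cfsg.Agent.H93

/-- An automorphism fixing the 24 frame vectors is the identity. -/
theorem co0_eq_one_of_fix_frame {g : Equiv.Perm leechLattice} (hg : g ∈ Co0)
    (h : ∀ i : GolayPt, g ⟨bvec i, bvec_mem i⟩ = ⟨bvec i, bvec_mem i⟩) : g = 1 := by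
  let φ : leechLattice →+ leechLattice := AddMonoidHom.mk' g hg.1
  have hφ : ∀ x, φ x = g x := fun _ => rfl
  apply Equiv.ext
  intro x
  show g x = x
  have key : (8 : ℤ) • x
      = ∑ i : GolayPt, ((x : GolayPt → ℤ) i) • (⟨bvec i, bvec_mem i⟩ : leechLattice) := by
    apply Subtype.ext
    have e1 : ((∑ i : GolayPt, ((x : GolayPt → ℤ) i) • (⟨bvec i, bvec_mem i⟩ : leechLattice)
        : leechLattice) : GolayPt → ℤ)
        = ∑ i : GolayPt, ((x : GolayPt → ℤ) i) • bvec i := by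
      rw [← AddSubgroup.subtype_apply, map_sum]
      rfl
    rw [e1]
    funext j
    rw [Finset.sum_apply]
    show (8 : ℤ) * (x : GolayPt → ℤ) j = ∑ i : GolayPt, ((x : GolayPt → ℤ) i) * bvec i j
    unfold bvec
    rw [Finset.sum_eq_single j]
    · simp [mul_comm]
    · intro i _ hij
      rw [Pi.single_eq_of_ne (Ne.symm hij), mul_zero]
    · intro hj; exact absurd (Finset.mem_univ j) hj
  have h1 : φ ((8 : ℤ) • x) = (8 : ℤ) • x := by
    conv_lhs => rw [key]
    rw [map_sum]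
    conv_rhs => rw [key]
    apply Finset.sum_congr rfl
    intro i _
    rw [map_zsmul, hφ, h i]
  rw [map_zsmul, hφ] at h1
  apply Subtype.ext
  funext j
  have h2 := congrArg (fun y : leechLattice => (y : GolayPt → ℤ) j) h1
  have h3 : (8 : ℤ) * ((g x : leechLattice) : GolayPt → ℤ) j = 8 * (x : GolayPt → ℤ) j := h2
  linarith

theorem vec_frV {i : ℕ} (hi : i < 24) : vec (frV i) = bvec (gPt i) := by
  funext p
  have h := (allB_iff _ _).mp ((allB_iff _ _).mp frV_f8 i hi) (gIdx p) (gIdx_lt p)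
  rw [vec_apply, Nat.eq_of_beq_eq_true h]
  unfold bvec
  by_cases hp : gIdx p = i
  · have e : p = gPt i := by rw [← hp, gPt_gIdx]
    subst e
    have hb : Nat.beq (gIdx (gPt i)) i = true := by rw [hp]; exact Nat.beq_refl i
    rw [hb, Pi.single_eq_same]
    norm_num
  · have e : p ≠ gPt i := fun e => hp (by rw [e, gIdx_gPt hi])
    have hb : Nat.beq (gIdx p) i = false := nat_beq_false' hp
    rw [hb, Pi.single_eq_of_ne e]
    norm_num

/-- The involution of the standard configuration. -/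
theorem hs_invol_std : ∃ g ∈ Co0, g a48 = a48 ∧ g w48 = w48 ∧ g * g = 1 ∧
    ∀ y ∈ XD [(a48, 24), (w48, -24)], g y ≠ y := by
  obtain ⟨g, hg, hfix, hrun⟩ := gen_eltL LInvW_ok
  have ha : g a48 = a48 := hfix (LF552A, 393240) (by decide) LF552A_mem
  have hw : g w48 = w48 := hfix (LHSW, 393192) (by decide) LHSW_mem
  refine ⟨g, hg, ha, hw, ?_, ?_⟩
  · -- the square fixes the frame
    have hgg : g * g ∈ Co0 := mul_mem hg hg
    apply co0_eq_one_of_fix_frame hgg
    intro p
    have hi := gIdx_lt p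
    have hc := (allB_iff _ _).mp LInvW_sq (gIdx p) hi
    simp only [Bool.and_eq_true] at hc
    obtain ⟨h1, h2, h3⟩ := hc
    have ev : vec (frV (gIdx p)) = bvec p := by rw [vec_frV hi, gPt_gIdx]
    have hm0 : vec (frV (gIdx p)) ∈ leechLattice := by rw [ev]; exact bvec_mem p
    have e0 : (⟨bvec p, bvec_mem p⟩ : leechLattice) = ⟨vec (frV (gIdx p)), hm0⟩ :=
      Subtype.ext ev.symm
    have r1 := hrun _ h1 hm0
    have hm1 : vec (runW LInvW (frV (gIdx p))) ∈ leechLattice := by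
      rw [← r1]; exact (g ⟨vec (frV (gIdx p)), hm0⟩).2
    have r2 := hrun _ h2 hm1
    rw [e0, Equiv.Perm.mul_apply]
    have e1 : g ⟨vec (frV (gIdx p)), hm0⟩ = ⟨vec (runW LInvW (frV (gIdx p))), hm1⟩ :=
      Subtype.ext r1
    rw [e1]
    apply Subtype.ext
    rw [r2, Nat.eq_of_beq_eq_true h3]
  · intro y hy hfixed
    obtain ⟨j, hj, e⟩ := L100_level.2.2 y hy
    have hc := (allB_iff _ _).mp LInvW_free j hj
    simp only [Bool.and_eq_true, Bool.not_eq_true'] at hc
    obtain ⟨h1, h2⟩ := hc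
    have hm : vec (fldW 192 L100E j) ∈ leechLattice := by rw [← e]; exact y.2
    have ey : y = ⟨vec (fldW 192 L100E j), hm⟩ := Subtype.ext e
    have r1 := hrun _ h1 hm
    rw [← ey, hfixed, e] at r1
    -- r1 : vec (fldW 192 L100E j) = vec (runW LInvW (fldW 192 L100E j))
    have hall : allB (fun i => Nat.beq (f8 (runW LInvW (fldW 192 L100E j)) i)
        (f8 (fldW 192 L100E j) i)) 24 = true := by
      rw [allB_iff]
      intro i hi
      have h4 := congrFun r1 (gPt i)
      rw [vec_gPt _ hi, vec_gPt _ hi] at h4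
      have h5 : f8 (runW LInvW (fldW 192 L100E j)) i = f8 (fldW 192 L100E j) i := by omega
      rw [h5]
      exact Nat.beq_refl _
    rw [hall] at h2
    exact absurd h2 (by decide)

/-- The fixed point free involution. -/
theorem hs_invol (v w : leechLattice) (hv : sqNorm (v : GolayPt → ℤ) = 48)
    (hw : sqNorm (w : GolayPt → ℤ) = 48)
    (hvw : dotInt (v : GolayPt → ℤ) (w : GolayPt → ℤ) = -32)
    (S : Set leechLattice) (hS : S = XD [(v, 24), (w, -24)]) :
    ∃ g : ↥Co0, g • v = v ∧ g • w = w ∧ orderOf g = 2 ∧ ∀ x ∈ S, g • x ≠ x := by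
  subst hS
  obtain ⟨h, hh, he⟩ := hs_pair_to_std v w hv hw hvw
  have hev : h v = a48 := by
    have : [(h v, (24 : ℤ)), (h w, (-24 : ℤ))] = [(a48, 24), (w48, -24)] := he
    simp only [List.cons.injEq, Prod.mk.injEq, and_true] at this
    exact this.1
  have hew : h w = w48 := by
    have : [(h v, (24 : ℤ)), (h w, (-24 : ℤ))] = [(a48, 24), (w48, -24)] := he
    simp only [List.cons.injEq, Prod.mk.injEq, and_true] at this
    exact this.2
  obtain ⟨g0, hg0, ea, ew, hsq, hfree⟩ := hs_invol_std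
  have hgmem : h⁻¹ * g0 * h ∈ Co0 := mul_mem (mul_mem (inv_mem hh) hg0) hh
  have hne : ∀ x ∈ XD [(v, 24), (w, -24)], (h⁻¹ * g0 * h) x ≠ x := by
    intro x hx hfixed
    have h1 : h x ∈ XD [(a48, 24), (w48, -24)] := he ▸ XD_act hh hx
    apply hfree _ h1
    rw [Equiv.Perm.mul_apply, Equiv.Perm.mul_apply, Equiv.Perm.inv_eq_iff_eq] at hfixed
    exact hfixed
  have hsq' : (h⁻¹ * g0 * h) * (h⁻¹ * g0 * h) = 1 := by
    have : (h⁻¹ * g0 * h) * (h⁻¹ * g0 * h) = h⁻¹ * (g0 * g0) * h := by group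
    rw [this, hsq]; group
  obtain ⟨x0, hx0⟩ : (XD [(v, 24), (w, -24)]).Nonempty :=
    Set.nonempty_of_ncard_ne_zero (by rw [(hs_100 v w hv hw hvw).1]; norm_num)
  refine ⟨⟨h⁻¹ * g0 * h, hgmem⟩, ?_, ?_, ?_, hne⟩
  · show (h⁻¹ * g0 * h) v = v
    rw [Equiv.Perm.mul_apply, Equiv.Perm.mul_apply, hev, ea, ← hev]; simp
  · show (h⁻¹ * g0 * h) w = w
    rw [Equiv.Perm.mul_apply, Equiv.Perm.mul_apply, hew, ew, ← hew]; simp
  · have : Fact (Nat.Prime 2) := ⟨Nat.prime_two⟩
    apply orderOf_eq_prime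
    · apply Subtype.ext
      rw [pow_two]
      exact hsq'
    · intro h1
      apply hne x0 hx0
      have : (h⁻¹ * g0 * h) = 1 := congrArg Subtype.val h1
      rw [this]; rfl

end Cfsg.Agent.H33
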