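import Mathlib
import Cfsg.Agent.H33.LMcL

/-!
The statements on the 275 vectors, for sets given by a predicate.
-/

set_option autoImplicit false

namespace Cfsg.Agent.H33

open Cfsg Cfsg.Agent.H9 Cfsg.Agent.H93

theorem s1580_aux (u v : leechLattice) (hu : sqNorm (u : GolayPt → ℤ) = 48)
    (hv : sqNorm (v : GolayPt → ℤ) = 32 ∧
      sqNorm ((u : GolayPt → ℤ) - (v : GolayPt → ℤ)) = 32)
    (S : Set leechLattice) (hS : S = XD [(u, 24), (v, 16)]) :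
    S.ncard = 275 ∧ ∀ x ∈ S, ∀ x' ∈ S, ∃ g : ↥Co0, g • u = u ∧ g • v = v ∧ g • x = x' := by
  subst hS
  obtain ⟨hc, ht⟩ := mcl_275 u v hu hv
  refine ⟨hc, fun x hx x' hx' => ?_⟩
  obtain ⟨g, hg, e1, e2, e3⟩ := ht x hx x' hx'
  exact ⟨⟨g, hg⟩, e1, e2, e3⟩

theorem s1581_aux (u v x : leechLattice) (hu : sqNorm (u : GolayPt → ℤ) = 48)
    (hv : sqNorm (v : GolayPt → ℤ) = 32 ∧
      sqNorm ((u : GolayPt → ℤ) - (v : GolayPt → ℤ)) = 32)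
    (S : Set leechLattice) (hS : S = XD [(u, 24), (v, 16)]) (hx : x ∈ S) :
    {y : leechLattice | y ∈ S ∧ dotInt (x : GolayPt → ℤ) (y : GolayPt → ℤ) = 8}.ncard = 112 ∧
    {y : leechLattice | y ∈ S ∧ y ≠ x ∧
      dotInt (x : GolayPt → ℤ) (y : GolayPt → ℤ) = 16}.ncard = 162 ∧
    ∀ y ∈ S, ∀ y' ∈ S, y ≠ x → y' ≠ x →
      dotInt (x : GolayPt → ℤ) (y : GolayPt → ℤ) = dotInt (x : GolayPt → ℤ) (y' : GolayPt → ℤ) →
      ∃ g : ↥Co0, g • u = u ∧ g • v = v ∧ g • x = x ∧ g • y = y' := by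
  subst hS
  obtain ⟨c8, c16, -, ht⟩ := mcl_rank3 u v x hu hv hx
  have eA : {y : leechLattice | y ∈ XD [(u, 24), (v, 16)] ∧
      dotInt (x : GolayPt → ℤ) (y : GolayPt → ℤ) = 8} = XD [(u, 24), (v, 16), (x, 8)] := by
    ext y
    rw [XD_three, Set.mem_setOf_eq, XD_two]
    tauto
  have eB : {y : leechLattice | y ∈ XD [(u, 24), (v, 16)] ∧ y ≠ x ∧
      dotInt (x : GolayPt → ℤ) (y : GolayPt → ℤ) = 16} = XD [(u, 24), (v, 16), (x, 16)] := by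
    ext y
    rw [XD_three, Set.mem_setOf_eq, XD_two]
    constructor
    · rintro ⟨⟨h1, h2, h3⟩, -, h4⟩
      exact ⟨h1, h2, h3, h4⟩
    · rintro ⟨h1, h2, h3, h4⟩
      refine ⟨⟨h1, h2, h3⟩, ?_, h4⟩
      rintro rfl
      rw [lc_dot_self, h1] at h4
      norm_num at h4
  rw [eA, eB]
  refine ⟨c8, c16, ?_⟩
  intro y hy y' hy' hne _ hd
  rw [XD_two] at hy hy'
  have hy3 : y ∈ XD [(u, 24), (v, 16), (x, dotInt (x : GolayPt → ℤ) (y : GolayPt → ℤ))] :=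
    (XD_three _ _ _ _ _ _ _).mpr ⟨hy.1, hy.2.1, hy.2.2, rfl⟩
  have hy3' : y' ∈ XD [(u, 24), (v, 16), (x, dotInt (x : GolayPt → ℤ) (y : GolayPt → ℤ))] :=
    (XD_three _ _ _ _ _ _ _).mpr ⟨hy'.1, hy'.2.1, hy'.2.2, hd.symm⟩
  obtain ⟨g, hg, e1, e2, e3, e4⟩ := ht _ y hy3 y' hy3' hne
  exact ⟨⟨g, hg⟩, e1, e2, e3, e4⟩

end Cfsg.Agent.H33
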