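import Cfsg.Agent.H33.Objs
import Cfsg.Agent.H33.Trio
import Cfsg.Agent.H33.OctStab

/-!
# Coded objects for orbit censuses (helper33): trios

A trio `{o₁, o₂, o₃}` is coded by its three masks in increasing order, 24 bits each.
-/

set_option autoImplicit false

namespace Cfsg.Agent.H33

open Cfsg Cfsg.Agent.H9 MulAction
open scoped Pointwise

theorem smul_mem_trios {g : Equiv.Perm GolayPt} (hg : g ∈ M24)
    {T : Finset (Finset GolayPt)} (hT : T ∈ trios) : g • T ∈ trios := by
  refine ⟨?_, ?_, ?_⟩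
  · rw [Finset.card_smul_finset]; exact hT.1
  · intro o ho
    obtain ⟨o', ho', rfl⟩ := Finset.mem_smul_finset.mp ho
    exact m24_smul_mem_octads hg (hT.2.1 o' ho')
  · intro t ht u hu htu
    obtain ⟨t', ht', rfl⟩ := Finset.mem_smul_finset.mp ht
    obtain ⟨u', hu', rfl⟩ := Finset.mem_smul_finset.mp hu
    have hne : t' ≠ u' := fun h => htu (by rw [h])
    have hd := hT.2.2 t' ht' u' hu' hne
    rw [Finset.disjoint_iff_inter_eq_empty] at hd ⊢
    rw [← Finset.smul_finset_inter, hd, Finset.smul_finset_empty]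

/-- the trio coded by `c` -/
def trioObj (c : ℕ) : Finset (Finset GolayPt) := {fs (fld c 0), fs (fld c 1), fs (fld c 2)}

def trioValid (c : ℕ) : Bool :=
  Nat.blt (fld c 0) (fld c 1) && (Nat.blt (fld c 1) (fld c 2) &&
    Nat.blt c 0x1000000000000000000)

def mem3 (x a b c : ℕ) : Bool := Nat.beq x a || (Nat.beq x b || Nat.beq x c)

theorem mem3_spec {x a b c : ℕ} (h : mem3 x a b c = true) : x = a ∨ x = b ∨ x = c := by
  unfold mem3 at h
  simp only [Bool.or_eq_true] at h
  rcases h with h | h | h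
  · exact Or.inl (Nat.eq_of_beq_eq_true h)
  · exact Or.inr (Or.inl (Nat.eq_of_beq_eq_true h))
  · exact Or.inr (Or.inr (Nat.eq_of_beq_eq_true h))

def trioEdge (P a b : ℕ) : Bool :=
  mem3 (imgN P (fld a 0)) (fld b 0) (fld b 1) (fld b 2) &&
  (mem3 (imgN P (fld a 1)) (fld b 0) (fld b 1) (fld b 2) &&
  (mem3 (imgN P (fld a 2)) (fld b 0) (fld b 1) (fld b 2) &&
  (mem3 (fld b 0) (imgN P (fld a 0)) (imgN P (fld a 1)) (imgN P (fld a 2)) &&
  (mem3 (fld b 1) (imgN P (fld a 0)) (imgN P (fld a 1)) (imgN P (fld a 2)) &&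
   mem3 (fld b 2) (imgN P (fld a 0)) (imgN P (fld a 1)) (imgN P (fld a 2))))))

theorem trioEdge_sound (P : ℕ) (g : Equiv.Perm GolayPt) (a b : ℕ) (hr : Rep P g)
    (_ : g ∈ M24) (_ : trioValid a = true) (_ : trioValid b = true)
    (h : trioEdge P a b = true) : g • trioObj a = trioObj b := by
  unfold trioEdge at h
  simp only [Bool.and_eq_true] at h
  obtain ⟨h1, h2, h3, h4, h5, h6⟩ := h
  unfold trioObj
  rw [Finset.smul_finset_insert, Finset.smul_finset_insert, Finset.smul_finset_singleton,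
    smul_fs hr, smul_fs hr, smul_fs hr]
  ext u
  simp only [Finset.mem_insert, Finset.mem_singleton]
  constructor
  · rintro (rfl | rfl | rfl)
    · rcases mem3_spec h1 with e | e | e <;> rw [e] <;> simp
    · rcases mem3_spec h2 with e | e | e <;> rw [e] <;> simp
    · rcases mem3_spec h3 with e | e | e <;> rw [e] <;> simp
  · rintro (rfl | rfl | rfl)
    · rcases mem3_spec h4 with e | e | e <;> rw [e] <;> simp
    · rcases mem3_spec h5 with e | e | e <;> rw [e] <;> simp
    · rcases mem3_spec h6 with e | e | e <;> rw [e] <;> simp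

theorem fld_lt (E j : ℕ) : fld E j < 2 ^ 24 := by
  unfold fld
  exact lt_of_le_of_lt Nat.and_le_right (by norm_num)

theorem fld_eq (c j : ℕ) : fld c j = c / 2 ^ (24 * j) % 2 ^ 24 := by
  unfold fld
  rw [shiftRight_eq, mul_eq]
  exact Nat.and_two_pow_sub_one_eq_mod _ 24

theorem eq_of_fld {a b : ℕ} (ha : a < 2 ^ 72) (hb : b < 2 ^ 72) (h0 : fld a 0 = fld b 0)
    (h1 : fld a 1 = fld b 1) (h2 : fld a 2 = fld b 2) : a = b := by
  rw [fld_eq, fld_eq] at h0 h1 h2
  norm_num at h0 h1 h2 ha hb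
  omega

theorem trioObj_inj (a b : ℕ) (ha : trioValid a = true) (hb : trioValid b = true)
    (h : trioObj a = trioObj b) : a = b := by
  unfold trioValid at ha hb
  simp only [Bool.and_eq_true] at ha hb
  obtain ⟨ha1, ha2, ha3⟩ := ha
  obtain ⟨hb1, hb2, hb3⟩ := hb
  have ha1' := lt_of_blt ha1
  have ha2' := lt_of_blt ha2
  have hb1' := lt_of_blt hb1
  have hb2' := lt_of_blt hb2
  have key : ∀ x y : ℕ, ∀ i, fs (fld x i) ∈ trioObj y →
      fld x i = fld y 0 ∨ fld x i = fld y 1 ∨ fld x i = fld y 2 := by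
    intro x y i hm
    unfold trioObj at hm
    simp only [Finset.mem_insert, Finset.mem_singleton] at hm
    rcases hm with e | e | e
    · exact Or.inl (fs_inj (fld_lt _ _) (fld_lt _ _) e)
    · exact Or.inr (Or.inl (fs_inj (fld_lt _ _) (fld_lt _ _) e))
    · exact Or.inr (Or.inr (fs_inj (fld_lt _ _) (fld_lt _ _) e))
  have hm : ∀ x i, i < 3 → fs (fld x i) ∈ trioObj x := by
    intro x i hi
    unfold trioObj
    interval_cases i <;> simp
  have a0 := key a b 0 (h ▸ hm a 0 (by norm_num))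
  have a1 := key a b 1 (h ▸ hm a 1 (by norm_num))
  have a2 := key a b 2 (h ▸ hm a 2 (by norm_num))
  have b0 := key b a 0 (h ▸ hm b 0 (by norm_num))
  have b1 := key b a 1 (h ▸ hm b 1 (by norm_num))
  have b2 := key b a 2 (h ▸ hm b 2 (by norm_num))
  refine eq_of_fld (lt_of_blt ha3) (lt_of_blt hb3) ?_ ?_ ?_ <;> omega

/-- a coded trio is a trio -/
def trioOK (c : ℕ) : Bool :=
  isGolay (fld c 0) && (Nat.beq (pcT (fld c 0)) 8 && (isGolay (fld c 1) &&
    (Nat.beq (pcT (fld c 1)) 8 && (isGolay (fld c 2) && (Nat.beq (pcT (fld c 2)) 8 &&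
    (Nat.beq (Nat.land (fld c 0) (fld c 1)) 0 && (Nat.beq (Nat.land (fld c 0) (fld c 2)) 0 &&
      Nat.beq (Nat.land (fld c 1) (fld c 2)) 0)))))))

theorem trio_mem_of_ok {c : ℕ} (h : trioOK c = true) : trioObj c ∈ trios := by
  unfold trioOK at h
  simp only [Bool.and_eq_true] at h
  obtain ⟨g0, w0, g1, w1, g2, w2, d01, d02, d12⟩ := h
  have o0 : fs (fld c 0) ∈ octads := fs_mem_octads g0 (Nat.eq_of_beq_eq_true w0)
  have o1 : fs (fld c 1) ∈ octads := fs_mem_octads g1 (Nat.eq_of_beq_eq_true w1)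
  have o2 : fs (fld c 2) ∈ octads := fs_mem_octads g2 (Nat.eq_of_beq_eq_true w2)
  have hdis : ∀ x y : ℕ, Nat.beq (Nat.land x y) 0 = true → Disjoint (fs x) (fs y) := by
    intro x y hxy
    rw [Finset.disjoint_iff_inter_eq_empty, ← fs_and]
    have : x &&& y = 0 := Nat.eq_of_beq_eq_true hxy
    rw [this, fs_zero]
  have e01 := hdis _ _ d01
  have e02 := hdis _ _ d02
  have e12 := hdis _ _ d12
  have hT := trio_of_disjoint o0 o1 e01
  have e : fs (fld c 2) = (fs (fld c 0) ∪ fs (fld c 1))ᶜ := by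
    apply Finset.eq_of_subset_of_card_le
    · intro x hx
      rw [Finset.mem_compl, Finset.mem_union]
      rintro (hx' | hx')
      · exact Finset.disjoint_left.mp e02 hx' hx
      · exact Finset.disjoint_left.mp e12 hx' hx
    · rw [(compl_union_mem_octads o0 o1 e01).2, o2.2]
  unfold trioObj
  rw [e]
  exact hT

theorem trio_hAinv : ∀ g ∈ M24, ∀ a ∈ trios, g • a ∈ trios :=
  fun _ hg _ ha => smul_mem_trios hg ha

theorem trios_ncard' : trios.ncard = 3795 := trios_ncard hS (disjHyp_of hW hS)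

end Cfsg.Agent.H33
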