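import Cfsg.Agent.H33.Cert

/-!
# Coded objects for orbit censuses (helper33): sets of points
-/

set_option autoImplicit false

namespace Cfsg.Agent.H33

open Cfsg Cfsg.Agent.H9 MulAction
open scoped Pointwise

/-! ## Sets of points, coded by 24-bit masks -/

def setValid (m : ℕ) : Bool := Nat.blt m 0x1000000

def setEdge (P a b : ℕ) : Bool := Nat.beq (imgN P a) b

theorem setEdge_sound (P : ℕ) (g : Equiv.Perm GolayPt) (a b : ℕ) (hr : Rep P g) (_ : g ∈ M24)
    (_ : setValid a = true) (_ : setValid b = true) (h : setEdge P a b = true) :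
    g • fs a = fs b := by
  rw [smul_fs hr, Nat.eq_of_beq_eq_true h]

theorem setObj_inj (a b : ℕ) (ha : setValid a = true) (hb : setValid b = true)
    (h : fs a = fs b) : a = b :=
  fs_inj (lt_of_blt ha) (lt_of_blt hb) h

theorem m24_act_finset (g : ↥M24) (x : Finset GolayPt) :
    g • x = (g : Equiv.Perm GolayPt) • x := rfl

theorem m24_act_finset2 (g : ↥M24) (x : Finset (Finset GolayPt)) :
    g • x = (g : Equiv.Perm GolayPt) • x := rfl

end Cfsg.Agent.H33
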