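import Cfsg.Agent.H33.OctMax
import Cfsg.Agent.H9.M24d
import Cfsg.Agent.H34.M24Oct

/-!
# The octad stabiliser induces `A₈` on the octad and splits (helper33): S1553, S1554
-/

set_option autoImplicit false

namespace Cfsg.Agent.H33

open Cfsg Cfsg.Agent.H9 MulAction
open scoped Pointwise

/-- the setwise stabiliser of `o` in `M24` -/
def octH (o : Finset GolayPt) : Subgroup (Equiv.Perm GolayPt) :=
  M24 ⊓ stabilizer (Equiv.Perm GolayPt) o

/-- the pointwise stabiliser of `o` in `M24` -/
def octK (o : Finset GolayPt) : Subgroup (Equiv.Perm GolayPt) :=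
  M24 ⊓ fixingSubgroup (Equiv.Perm GolayPt) (o : Set GolayPt)

theorem mem_iff_of_smul_eq {g : Equiv.Perm GolayPt} {o : Finset GolayPt} (h : g • o = o)
    (x : GolayPt) : g x ∈ o ↔ x ∈ o := by
  have := Finset.smul_mem_smul_finset_iff (s := o) (b := x) g
  rw [h] at this
  exact this

theorem smul_eq_of_mem_iff {g : Equiv.Perm GolayPt} {o : Finset GolayPt}
    (h : ∀ x, g x ∈ o ↔ x ∈ o) : g • o = o := by
  ext x
  rw [← Finset.inv_smul_mem_iff]
  have h1 := h (g⁻¹ x)
  have h2 : g (g⁻¹ x) = x := Equiv.apply_symm_apply g x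
  rw [h2] at h1
  exact h1.symm

/-- restriction to the octad -/
def octRes (o : Finset GolayPt) : ↥(octH o) →* Equiv.Perm ↥o where
  toFun g := (g : Equiv.Perm GolayPt).subtypePerm
    (mem_iff_of_smul_eq (mem_stabilizer_iff.mp (Subgroup.mem_inf.mp g.2).2))
  map_one' := by apply Equiv.ext; intro x; rfl
  map_mul' a b := by apply Equiv.ext; intro x; rfl

theorem octRes_apply (o : Finset GolayPt) (g : ↥(octH o)) (x : ↥o) :
    ((octRes o g x : ↥o) : GolayPt) = (g : Equiv.Perm GolayPt) x := rfl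

theorem octK_le_octH (o : Finset GolayPt) : octK o ≤ octH o := by
  intro g hg0
  obtain ⟨hg, hfix⟩ := Subgroup.mem_inf.mp hg0
  refine Subgroup.mem_inf.mpr ⟨hg, ?_⟩
  rw [mem_stabilizer_iff]
  apply smul_eq_of_mem_iff
  intro x
  rw [mem_fixingSubgroup_iff] at hfix
  constructor
  · intro hx
    by_contra hxo
    have h1 : g (g x) = g x := hfix (g x) (Finset.mem_coe.mpr hx)
    have h2 : g x = x := g.injective h1
    rw [h2] at hx
    exact hxo hx
  · intro hx
    have h1 : g x = x := hfix x (Finset.mem_coe.mpr hx)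
    rw [h1]
    exact hx

theorem octRes_eq_one_iff (o : Finset GolayPt) (g : ↥(octH o)) :
    octRes o g = 1 ↔ (g : Equiv.Perm GolayPt) ∈ octK o := by
  constructor
  · intro h
    refine Subgroup.mem_inf.mpr ⟨(Subgroup.mem_inf.mp g.2).1, ?_⟩
    rw [mem_fixingSubgroup_iff]
    intro y hy
    have := congrArg (fun e : Equiv.Perm ↥o => ((e ⟨y, Finset.mem_coe.mp hy⟩ : ↥o) : GolayPt)) h
    exact this
  · intro h
    have hfix := (Subgroup.mem_inf.mp h).2
    rw [mem_fixingSubgroup_iff] at hfix
    apply Equiv.ext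
    intro x
    apply Subtype.ext
    exact hfix x (Finset.mem_coe.mpr x.2)

theorem octH_card {o : Finset GolayPt} (ho : o ∈ octads) : Nat.card (octH o) = 322560 := by
  have h := card_eq_orbit_mul_inf (G := Equiv.Perm GolayPt) M24 o
  have horb : (orbit ↥M24 o).ncard = 759 := by
    rw [orbit_octad ho]
    exact Cfsg.Agent.H9.octads_ncard
  rw [card_M24, horb] at h
  unfold octH
  omega

theorem octRes_ker_card {o : Finset GolayPt} (ho : o ∈ octads) :
    Nat.card (octRes o).ker = 16 := by
  rw [← (octad_fixer ho).1]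
  have h3 : (octRes o).ker.map (octH o).subtype = octK o := by
    ext g
    rw [Subgroup.mem_map]
    constructor
    · rintro ⟨k, hk, rfl⟩
      exact (octRes_eq_one_iff o k).mp (MonoidHom.mem_ker.mp hk)
    · intro hg
      exact ⟨⟨g, octK_le_octH o hg⟩, MonoidHom.mem_ker.mpr ((octRes_eq_one_iff o _).mpr hg), rfl⟩
  show Nat.card (octRes o).ker = Nat.card (octK o)
  rw [← h3]
  exact Nat.card_congr
    ((octRes o).ker.equivMapOfInjective (octH o).subtype (octH o).subtype_injective).toEquiv

theorem octRes_range {o : Finset GolayPt} (ho : o ∈ octads) :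
    (octRes o).range = alternatingGroup ↥o := by
  apply Equiv.Perm.eq_alternatingGroup_of_index_eq_two
  have h1 := Subgroup.card_mul_index (octRes o).ker
  rw [Subgroup.index_ker, octRes_ker_card ho, octH_card ho] at h1
  have h2 := Subgroup.card_mul_index (octRes o).range
  have h3 : Nat.card (Equiv.Perm ↥o) = 40320 := by
    rw [Nat.card_eq_fintype_card, Fintype.card_perm, Fintype.card_coe, ho.2]
    decide
  rw [h3] at h2
  have h4 : Nat.card (octRes o).range = 20160 := by omega
  rw [h4] at h2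
  omega

/-- S1553: the octad stabiliser induces the alternating group on the octad. -/
theorem octad_induces_alt (o : Finset GolayPt) (ho : o ∈ octads) :
    {e : Equiv.Perm ↥o | ∃ g : Equiv.Perm GolayPt, g ∈ M24 ∧
      ∃ h : (∀ x, g x ∈ o ↔ x ∈ o), g.subtypePerm h = e} =
    (alternatingGroup ↥o : Set (Equiv.Perm ↥o)) := by
  rw [← octRes_range ho]
  ext e
  constructor
  · rintro ⟨g, hg, h, rfl⟩
    exact ⟨⟨g, Subgroup.mem_inf.mpr ⟨hg, mem_stabilizer_iff.mpr (smul_eq_of_mem_iff h)⟩⟩, rfl⟩
  · rintro ⟨g, rfl⟩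
    exact ⟨g.1, (Subgroup.mem_inf.mp g.2).1,
      mem_iff_of_smul_eq (mem_stabilizer_iff.mp (Subgroup.mem_inf.mp g.2).2), rfl⟩

end Cfsg.Agent.H33
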