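import Cfsg.Agent.H33.OctA8

/-!
# The octad stabiliser is a split extension `2⁴ : A₈` (helper33): S1554
-/

set_option autoImplicit false

namespace Cfsg.Agent.H33

open Cfsg Cfsg.Agent.H9 MulAction
open scoped Pointwise

theorem base_pts_mem : ∀ i ∈ [7, 4, 3, 2, 1, 0], gPt i ∈ fs Cfsg.Agent.H34.O0 := by
  intro i hi
  rw [mem_fs]
  simp only [List.mem_cons, List.not_mem_nil, or_false] at hi
  rcases hi with rfl | rfl | rfl | rfl | rfl | rfl <;>
    (rw [gIdx_gPt (by norm_num)]; decide)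

/-- the pointwise stabiliser of an octad acts freely off the octad -/
theorem octK_inf_stab {o : Finset GolayPt} (ho : o ∈ octads) {p : GolayPt} (hp : p ∉ o) :
    octK o ⊓ stabilizer (Equiv.Perm GolayPt) p = ⊥ := by
  rw [eq_bot_iff]
  intro g hg
  obtain ⟨hgK, hgp⟩ := Subgroup.mem_inf.mp hg
  obtain ⟨hgM, hfix⟩ := Subgroup.mem_inf.mp hgK
  rw [mem_fixingSubgroup_iff] at hfix
  have hgp' : g p = p := mem_stabilizer_iff.mp hgp
  obtain ⟨t, ht, hto, htp⟩ := Cfsg.Agent.H34.antiflag_trans ho hp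
  have hmem : t * g * t⁻¹ ∈ Stab [5, 7, 4, 3, 2, 1, 0] := by
    rw [mem_Stab]
    refine ⟨M24.mul_mem (M24.mul_mem ht hgM) (M24.inv_mem ht), ?_⟩
    intro i hi
    rw [List.mem_cons] at hi
    rcases hi with rfl | hi
    · show t (g (t⁻¹ (gPt 5))) = gPt 5
      have : t⁻¹ (gPt 5) = p := by rw [← htp]; exact Equiv.symm_apply_apply t p
      rw [this, hgp', htp]
    · show t (g (t⁻¹ (gPt i))) = gPt i
      have h1 : gPt i ∈ t • o := hto ▸ base_pts_mem i hi
      have h2 : t⁻¹ (gPt i) ∈ o := Finset.inv_smul_mem_iff.mpr h1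
      have h3 : g (t⁻¹ (gPt i)) = t⁻¹ (gPt i) := hfix _ (Finset.mem_coe.mpr h2)
      rw [h3]
      exact Equiv.apply_symm_apply t (gPt i)
  rw [Stab_base_eq_bot, Subgroup.mem_bot] at hmem
  rw [Subgroup.mem_bot]
  have : g = t⁻¹ * (t * g * t⁻¹) * t := by group
  rw [this, hmem]
  group

/-- the pointwise stabiliser of an octad is transitive on the points off the octad -/
theorem octK_trans {o : Finset GolayPt} (ho : o ∈ octads) {p q : GolayPt} (hp : p ∉ o)
    (hq : q ∉ o) : ∃ k ∈ octK o, k p = q := by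
  have h := card_eq_orbit_mul_inf (G := Equiv.Perm GolayPt) (octK o) p
  rw [octK_inf_stab ho hp, Subgroup.card_bot, mul_one] at h
  have h16 : Nat.card (octK o) = 16 := (octad_fixer ho).1
  rw [h16] at h
  have hsub : orbit ↥(octK o) p ⊆ ((oᶜ : Finset GolayPt) : Set GolayPt) := by
    rintro _ ⟨k, rfl⟩
    rw [Finset.mem_coe, Finset.mem_compl]
    intro hk
    have hfix := (Subgroup.mem_inf.mp k.2).2
    rw [mem_fixingSubgroup_iff] at hfix
    have h1 : (k : Equiv.Perm GolayPt) ((k : Equiv.Perm GolayPt) p) = (k : Equiv.Perm GolayPt) p :=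
      hfix _ (Finset.mem_coe.mpr hk)
    have h2 : (k : Equiv.Perm GolayPt) p = p := (k : Equiv.Perm GolayPt).injective h1
    exact hp (h2 ▸ hk)
  have heq := Set.eq_of_subset_of_ncard_le hsub (by
    rw [Set.ncard_coe_finset, Finset.card_compl, ho.2, card_golayPt, ← h]) (Finset.finite_toSet _)
  have hq' : q ∈ orbit ↥(octK o) p := by
    rw [heq, Finset.mem_coe, Finset.mem_compl]
    exact hq
  obtain ⟨k, hk⟩ := hq'
  exact ⟨k, k.2, hk⟩

/-- every element of the octad stabiliser is a product of an element fixing the octad pointwise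
and an element fixing the outside point `p` -/
theorem octH_decomp {o : Finset GolayPt} (ho : o ∈ octads) {p : GolayPt} (hp : p ∉ o)
    {g : Equiv.Perm GolayPt} (hg : g ∈ octH o) :
    ∃ k ∈ octK o, ∃ h ∈ octH o ⊓ stabilizer (Equiv.Perm GolayPt) p, g = k * h := by
  have hgo : g • o = o := mem_stabilizer_iff.mp (Subgroup.mem_inf.mp hg).2
  have hgp : g p ∉ o := fun h => hp ((mem_iff_of_smul_eq hgo p).mp h)
  obtain ⟨k, hk, hkp⟩ := octK_trans ho hp hgp
  refine ⟨k, hk, k⁻¹ * g, ?_, by group⟩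
  refine Subgroup.mem_inf.mpr ⟨(octH o).mul_mem ((octH o).inv_mem (octK_le_octH o hk)) hg, ?_⟩
  rw [mem_stabilizer_iff]
  show k⁻¹ (g p) = p
  rw [← hkp]
  exact Equiv.symm_apply_apply k p

/-- restriction to the octad of the stabiliser of the octad and an outside point -/
def octResP (o : Finset GolayPt) (p : GolayPt) :
    ↥(octH o ⊓ stabilizer (Equiv.Perm GolayPt) p) →* Equiv.Perm ↥o :=
  (octRes o).comp (Subgroup.inclusion inf_le_left)

theorem octResP_injective {o : Finset GolayPt} (ho : o ∈ octads) {p : GolayPt} (hp : p ∉ o) :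
    Function.Injective (octResP o p) := by
  rw [injective_iff_map_eq_one]
  intro g hg
  have h1 : ((Subgroup.inclusion inf_le_left g : ↥(octH o)) : Equiv.Perm GolayPt) ∈ octK o :=
    (octRes_eq_one_iff o _).mp hg
  have h2 : (g : Equiv.Perm GolayPt) ∈ octK o ⊓ stabilizer (Equiv.Perm GolayPt) p :=
    Subgroup.mem_inf.mpr ⟨h1, (Subgroup.mem_inf.mp g.2).2⟩
  rw [octK_inf_stab ho hp, Subgroup.mem_bot] at h2
  exact Subtype.ext h2

theorem octResP_range {o : Finset GolayPt} (ho : o ∈ octads) {p : GolayPt} (hp : p ∉ o) :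
    (octResP o p).range = alternatingGroup ↥o := by
  rw [← octRes_range ho]
  apply le_antisymm
  · rintro _ ⟨g, rfl⟩
    exact ⟨Subgroup.inclusion inf_le_left g, rfl⟩
  · rintro _ ⟨g, rfl⟩
    obtain ⟨k, hk, h, hh, e⟩ := octH_decomp ho hp g.2
    refine ⟨⟨h, hh⟩, ?_⟩
    have e' : g = ⟨k, octK_le_octH o hk⟩ * ⟨h, (Subgroup.mem_inf.mp hh).1⟩ := Subtype.ext e
    rw [e', map_mul, (octRes_eq_one_iff o ⟨k, octK_le_octH o hk⟩).mpr hk, one_mul]
    rfl

/-- S1554: the octad stabiliser is a split extension of the pointwise stabiliser by `A₈`. -/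
theorem octad_split (o : Finset GolayPt) (ho : o ∈ octads) (p : GolayPt) (hp : p ∉ o) :
    (M24 ⊓ fixingSubgroup (Equiv.Perm GolayPt) (o : Set GolayPt)) ⊓
      (M24 ⊓ stabilizer (Equiv.Perm GolayPt) o ⊓ stabilizer (Equiv.Perm GolayPt) p) = ⊥ ∧
    (M24 ⊓ fixingSubgroup (Equiv.Perm GolayPt) (o : Set GolayPt)) ⊔
      (M24 ⊓ stabilizer (Equiv.Perm GolayPt) o ⊓ stabilizer (Equiv.Perm GolayPt) p) =
      (M24 ⊓ stabilizer (Equiv.Perm GolayPt) o) ∧
    Nonempty (↥(M24 ⊓ stabilizer (Equiv.Perm GolayPt) o ⊓ stabilizer (Equiv.Perm GolayPt) p) ≃*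
      alternatingGroup (Fin 8)) := by
  refine ⟨?_, ?_, ?_⟩
  · show octK o ⊓ (octH o ⊓ stabilizer (Equiv.Perm GolayPt) p) = ⊥
    rw [eq_bot_iff, ← octK_inf_stab ho hp]
    exact inf_le_inf_left _ inf_le_right
  · show octK o ⊔ (octH o ⊓ stabilizer (Equiv.Perm GolayPt) p) = octH o
    apply le_antisymm
    · exact sup_le (octK_le_octH o) inf_le_left
    · intro g hg
      obtain ⟨k, hk, h, hh, rfl⟩ := octH_decomp ho hp hg
      exact Subgroup.mul_mem_sup hk hh
  · have hcard : Fintype.card ↥o = Fintype.card (Fin 8) := by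
      rw [Fintype.card_coe, ho.2, Fintype.card_fin]
    exact ⟨((MonoidHom.ofInjective (octResP_injective ho hp)).trans
      (MulEquiv.subgroupCongr (octResP_range ho hp))).trans
      (Equiv.altCongrHom (Fintype.equivOfCardEq hcard))⟩

end Cfsg.Agent.H33
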