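import Cfsg.Agent.H33.SextData

/-!
# Orbits of a sextet stabiliser on sextets, and its maximality (helper33): S1552
-/

set_option autoImplicit false

namespace Cfsg.Agent.H33

open Cfsg Cfsg.Agent.H9 MulAction
open scoped Pointwise

theorem fin3_or (i : Fin 3) : i = 0 ∨ i = 1 ∨ i = 2 := by
  revert i; decide

theorem fin4_or (i : Fin 4) : i = 0 ∨ i = 1 ∨ i = 2 ∨ i = 3 := by
  revert i; decide

namespace Census

variable {G X : Type*} [Group G] [MulAction G X] {x0 : X} {N K : ℕ}
  {f : ℕ → X} {τ : ℕ → ℕ}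

theorem union3 [Finite G] {ρ : Fin 3 → X} {n : Fin 3 → ℕ} (c : Census G X x0 N K 3 f τ ρ n) :
    orbit G x0 = {x0} ∪ orbit (stabilizer G x0) (ρ 0) ∪ orbit (stabilizer G x0) (ρ 1) ∪
      orbit (stabilizer G x0) (ρ 2) := by
  ext y
  simp only [Set.mem_union, Set.mem_singleton_iff]
  constructor
  · intro hy
    rcases c.cover y hy with h | ⟨i, hi⟩
    · exact Or.inl (Or.inl (Or.inl h))
    · rcases fin3_or i with rfl | rfl | rfl
      · exact Or.inl (Or.inl (Or.inr hi))
      · exact Or.inl (Or.inr hi)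
      · exact Or.inr hi
  · rintro (((rfl | h) | h) | h)
    · exact mem_orbit_self _
    · exact c.orbit_sub 0 h
    · exact c.orbit_sub 1 h
    · exact c.orbit_sub 2 h

theorem union4 [Finite G] {ρ : Fin 4 → X} {n : Fin 4 → ℕ} (c : Census G X x0 N K 4 f τ ρ n) :
    orbit G x0 = {x0} ∪ orbit (stabilizer G x0) (ρ 0) ∪ orbit (stabilizer G x0) (ρ 1) ∪
      orbit (stabilizer G x0) (ρ 2) ∪ orbit (stabilizer G x0) (ρ 3) := by
  ext y
  simp only [Set.mem_union, Set.mem_singleton_iff]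
  constructor
  · intro hy
    rcases c.cover y hy with h | ⟨i, hi⟩
    · exact Or.inl (Or.inl (Or.inl (Or.inl h)))
    · rcases fin4_or i with rfl | rfl | rfl | rfl
      · exact Or.inl (Or.inl (Or.inl (Or.inr hi)))
      · exact Or.inl (Or.inl (Or.inr hi))
      · exact Or.inl (Or.inr hi)
      · exact Or.inr hi
  · rintro ((((rfl | h) | h) | h) | h)
    · exact mem_orbit_self _
    · exact c.orbit_sub 0 h
    · exact c.orbit_sub 1 h
    · exact c.orbit_sub 2 h
    · exact c.orbit_sub 3 h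

end Census

theorem sextBase_lt : fld12 sextRG 0 < 1771 := by decide +kernel

theorem sext_census :
    sextets = orbit ↥M24 (sextetOf (fs (fldW 24 sextE (fld12 sextRG 0)))) ∧
    Census ↥M24 (Finset (Finset GolayPt)) (sextetOf (fs (fldW 24 sextE (fld12 sextRG 0))))
      1771 138240 3 (fun j => sextetOf (fs (fldW 24 sextE j))) (fun j => tTag (fld32 sextTH j))
      (fun i => sextetOf (fs (fldW 24 sextE (fld12 sextRH (i + 1))))) ![90, 240, 1440] := by
  refine cert_census m24_act_finset2 (fun m => sextetOf (fs m)) sextValid sextEdge sextEdge_sound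
    sextObj_inj sextets sext_hAinv 24 1771 138240 3 sextE ![90, 240, 1440] sextets_ncard'
    (by norm_num) (by norm_num) sextGG sextGGI sextNgG sextTG sextRG sextGG_ok sextSorted_ok
    sextForG_ok sextTagG_ok (sext_mem_of_valid (sorted_valid sextSorted_ok _ sextBase_lt))
    sextGH sextGHI sextNgH sextTH sextRH sextGH_ok sextForH_ok sextTagH_ok sextR0_ok
    sextCount_ok ?_
  intro J hJ hall
  clear hall
  revert J
  decide

/-- S1552: the orbits of a sextet stabiliser on the sextets, and its maximality. -/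
theorem sextet_orbits (S : Finset (Finset GolayPt)) (hSx : S ∈ sextets) :
    ∃ X₁ ∈ sextets, ∃ X₂ ∈ sextets, ∃ X₃ ∈ sextets,
      (orbit ↥(stabilizer ↥M24 S) X₁).ncard = 90 ∧
      (orbit ↥(stabilizer ↥M24 S) X₂).ncard = 240 ∧
      (orbit ↥(stabilizer ↥M24 S) X₃).ncard = 1440 ∧
      sextets = {S} ∪ orbit ↥(stabilizer ↥M24 S) X₁ ∪ orbit ↥(stabilizer ↥M24 S) X₂ ∪
        orbit ↥(stabilizer ↥M24 S) X₃ ∧
      IsCoatom (stabilizer ↥M24 S) := by
  obtain ⟨hA, c0⟩ := sext_census
  have hSm : S ∈ orbit ↥M24 (sextetOf (fs (fldW 24 sextE (fld12 sextRG 0)))) := hA ▸ hSx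
  obtain ⟨g, rfl⟩ := hSm
  have c := c0.smul g
  have horb : orbit ↥M24 (g • sextetOf (fs (fldW 24 sextE (fld12 sextRG 0)))) = sextets := by
    rw [orbit_smul, ← hA]
  have hmem : ∀ i : Fin 3, g • sextetOf (fs (fldW 24 sextE (fld12 sextRH (i + 1)))) ∈ sextets :=
    fun i => horb ▸ c.rep_mem i
  refine ⟨_, hmem 0, _, hmem 1, _, hmem 2, c.ncard_orbit 0, c.ncard_orbit 1, c.ncard_orbit 2,
    ?_, c.isCoatom 0 (by decide)⟩
  rw [← horb]
  exact c.union3

end Cfsg.Agent.H33
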