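import Cfsg.Agent.H33.SxData
import Cfsg.Agent.H34.M24Aux

/-!
# The stabiliser of the standard sextet: kernel-checked certificates (helper33), towards S1551
-/

set_option autoImplicit false

namespace Cfsg.Agent.H33

open Cfsg Cfsg.Agent.H9 MulAction
open scoped Pointwise

/-- the `i`-th tetrad of the standard sextet -/
def sxT (i : ℕ) : ℕ := fldW 24 sxTE i

/-- the standard sextet -/
noncomputable def sx0 : Finset (Finset GolayPt) := sextetOf (fs (sxT 0))

theorem sxT_ok : allB (fun i => Nat.beq (pcT (sxT i)) 4 &&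
    (isGolay (Nat.xor (sxT 0) (sxT i)) && Nat.blt (sxT i) 0x1000000)) 6 = true := by
  decide +kernel

theorem sxT_inj : ∀ i < 6, ∀ j < 6, sxT i = sxT j → i = j := by decide +kernel

theorem sxT_pc {i : ℕ} (hi : i < 6) : pcT (sxT i) = 4 := by
  have h := (allB_iff _ _).mp sxT_ok i hi
  simp only [Bool.and_eq_true] at h
  exact Nat.eq_of_beq_eq_true h.1

theorem sxT_card {i : ℕ} (hi : i < 6) : (fs (sxT i)).card = 4 := by
  rw [card_fs', sxT_pc hi]

theorem sxT_lt {i : ℕ} (hi : i < 6) : sxT i < 2 ^ 24 := by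
  have h := (allB_iff _ _).mp sxT_ok i hi
  simp only [Bool.and_eq_true] at h
  exact lt_of_blt h.2.2

theorem sxT_mem {i : ℕ} (hi : i < 6) : fs (sxT i) ∈ sx0 := by
  have h := (allB_iff _ _).mp sxT_ok i hi
  simp only [Bool.and_eq_true] at h
  unfold sx0
  rw [sextetOf_eq_of_isGolay (sxT_pc (by norm_num : 0 < 6)) (sxT_pc hi) h.2.1]
  exact self_mem_sextetOf _

theorem sx0_mem : sx0 ∈ sextets :=
  sextetOf_mem_sextets hW hS _ (sxT_card (by norm_num : 0 < 6))

theorem sx0_eq : sx0 = (Finset.range 6).image (fun i => fs (sxT i)) := by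
  symm
  apply Finset.eq_of_subset_of_card_le
  · intro t ht
    obtain ⟨i, hi, rfl⟩ := Finset.mem_image.mp ht
    exact sxT_mem (Finset.mem_range.mp hi)
  · rw [sx0_mem.1, Finset.card_image_of_injOn]
    · simp
    · intro i hi j hj e
      have hi' : i < 6 := Finset.mem_range.mp hi
      have hj' : j < 6 := Finset.mem_range.mp hj
      exact sxT_inj i hi' j hj' (fs_inj (sxT_lt hi') (sxT_lt hj') e)

theorem mem_sx0 {t : Finset GolayPt} : t ∈ sx0 ↔ ∃ i < 6, t = fs (sxT i) := by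
  rw [sx0_eq, Finset.mem_image]
  constructor
  · rintro ⟨i, hi, rfl⟩; exact ⟨i, Finset.mem_range.mp hi, rfl⟩
  · rintro ⟨i, hi, rfl⟩; exact ⟨i, Finset.mem_range.mpr hi, rfl⟩

/-! ## The transpositions of the tetrads -/

/-- a packed element swapping tetrads `i` and `j` -/
def sxSw (i j : ℕ) : ℕ := fldW 120 sxSwE (Nat.add (Nat.mul 6 i) j)

/-- the image of `k` under the transposition `(i j)` -/
def sxTr (i j k : ℕ) : ℕ := bif Nat.beq k i then j else bif Nat.beq k j then i else k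

def sxSwChk : Bool := allB (fun i => allB (fun j => Nat.beq i j ||
  (validP (sxSw i j) && (chkM24 (sxSw i j) &&
    allB (fun k => Nat.beq (imgN (sxSw i j) (sxT k)) (sxT (sxTr i j k))) 6))) 6) 6

theorem sxSw_ok : sxSwChk = true := by decide +kernel

theorem sxTr_left (i j : ℕ) : sxTr i j i = j := by
  unfold sxTr; rw [Nat.beq_refl]; rfl

theorem sxTr_right {i j : ℕ} (h : i ≠ j) : sxTr i j j = i := by
  unfold sxTr
  have : Nat.beq j i = false := by
    cases hb : Nat.beq j i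
    · rfl
    · exact absurd (Nat.eq_of_beq_eq_true hb).symm h
  rw [this, Nat.beq_refl]; rfl

theorem sxTr_other {i j k : ℕ} (hi : k ≠ i) (hj : k ≠ j) : sxTr i j k = k := by
  unfold sxTr
  have h1 : Nat.beq k i = false := by
    cases hb : Nat.beq k i
    · rfl
    · exact absurd (Nat.eq_of_beq_eq_true hb) hi
  have h2 : Nat.beq k j = false := by
    cases hb : Nat.beq k j
    · rfl
    · exact absurd (Nat.eq_of_beq_eq_true hb) hj
  rw [h1, h2]; rfl

theorem sxSw_spec {i j : ℕ} (hi : i < 6) (hj : j < 6) (hij : i ≠ j) :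
    ∃ g ∈ M24, g • fs (sxT i) = fs (sxT j) ∧ g • fs (sxT j) = fs (sxT i) ∧
      ∀ k < 6, k ≠ i → k ≠ j → g • fs (sxT k) = fs (sxT k) := by
  have h := (allB_iff _ _).mp ((allB_iff _ _).mp sxSw_ok i hi) j hj
  simp only [Bool.or_eq_true, Bool.and_eq_true] at h
  rcases h with h | ⟨h1, h2, h3⟩
  · exact absurd (Nat.eq_of_beq_eq_true h) hij
  obtain ⟨g, hg⟩ := exists_rep h1
  have key : ∀ k < 6, g • fs (sxT k) = fs (sxT (sxTr i j k)) := by
    intro k hk
    rw [smul_fs hg, Nat.eq_of_beq_eq_true ((allB_iff _ _).mp h3 k hk)]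
  refine ⟨g, mem_M24_of_chk hg h2, ?_, ?_, ?_⟩
  · rw [key i hi, sxTr_left]
  · rw [key j hj, sxTr_right hij]
  · intro k hk hki hkj
    rw [key k hk, sxTr_other hki hkj]

theorem sx0_range : (sxRes sx0).range = ⊤ := by
  rw [eq_top_iff, ← Equiv.Perm.closure_isSwap, Subgroup.closure_le]
  rintro σ ⟨x, y, hxy, rfl⟩
  obtain ⟨i, hi, hx⟩ := mem_sx0.mp x.2
  obtain ⟨j, hj, hy⟩ := mem_sx0.mp y.2
  have hij : i ≠ j := by
    rintro rfl
    exact hxy (Subtype.ext (hx.trans hy.symm))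
  obtain ⟨g, hg, h1, h2, h3⟩ := sxSw_spec hi hj hij
  have hstab : g • sx0 = sx0 := by
    apply Finset.eq_of_subset_of_card_le
    · intro t ht
      obtain ⟨t', ht', rfl⟩ := Finset.mem_smul_finset.mp ht
      obtain ⟨k, hk, rfl⟩ := mem_sx0.mp ht'
      by_cases hki : k = i
      · subst hki; rw [h1]; exact sxT_mem hj
      by_cases hkj : k = j
      · subst hkj; rw [h2]; exact sxT_mem hi
      rw [h3 k hk hki hkj]; exact sxT_mem hk
    · rw [Finset.card_smul_finset]
  refine ⟨⟨g, Subgroup.mem_inf.mpr ⟨hg, mem_stabilizer_iff.mpr hstab⟩⟩, ?_⟩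
  apply Equiv.ext
  intro z
  apply Subtype.ext
  rw [sxRes_apply]
  obtain ⟨k, hk, hz⟩ := mem_sx0.mp z.2
  show g • (z : Finset GolayPt) = _
  by_cases hzx : z = x
  · rw [hzx, Equiv.swap_apply_left, hx, h1, hy]
  by_cases hzy : z = y
  · rw [hzy, Equiv.swap_apply_right, hy, h2, hx]
  rw [Equiv.swap_apply_of_ne_of_ne hzx hzy, hz]
  apply h3 k hk
  · rintro rfl; exact hzx (Subtype.ext (hz.trans hx.symm))
  · rintro rfl; exact hzy (Subtype.ext (hz.trans hy.symm))

theorem sx0_card_sxB : Nat.card (sxB sx0) = 192 := sxB_card_of_range sx0_mem sx0_range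

/-! ## The normal subgroup `2^6` -/

/-- the `k`-th listed element -/
def sxNel (k : ℕ) : ℕ := fldW 120 sxNE k

/-- the mask of the pair `{a, b}` -/
def sxPm (a b : ℕ) : ℕ := Nat.lor (Nat.shiftLeft 1 a) (Nat.shiftLeft 1 b)

/-- `P` maps each pair of points inside a tetrad to itself or to the complementary pair -/
def sxPairChk (P : ℕ) : Bool :=
  allB (fun i => allB (fun a => allB (fun b =>
    !(tb (sxT i) a && tb (sxT i) b) || (Nat.beq a b ||
      (Nat.beq (imgN P (sxPm a b)) (sxPm a b) ||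
       Nat.beq (imgN P (sxPm a b)) (Nat.xor (sxT i) (sxPm a b))))) 24) 24) 6

/-- `P` is an element of `M24` fixing the six tetrads -/
def sxFixChk (P : ℕ) : Bool :=
  validP P && (chkM24 P && allB (fun i => Nat.beq (imgN P (sxT i)) (sxT i)) 6)

def sxNChk (P : ℕ) : Bool :=
  sxFixChk P && (allB (fun i => Nat.beq (lk P (lk P i)) i) 24 && sxPairChk P)

theorem sxN_ok : allB (fun k => sxNChk (sxNel k)) 64 = true := by decide +kernel

theorem sxN_distinct : allB (fun j => allB (fun k => Nat.beq j k ||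
    !(allB (fun a => Nat.beq (lk (sxNel j) a) (lk (sxNel k) a)) 24)) 64) 64 = true := by
  decide +kernel

theorem mem_sxB_of_chk {P : ℕ} {g : Equiv.Perm GolayPt} (hg : Rep P g)
    (h : sxFixChk P = true) : g ∈ sxB sx0 := by
  unfold sxFixChk at h
  simp only [Bool.and_eq_true] at h
  obtain ⟨-, h2, h3⟩ := h
  refine ⟨mem_M24_of_chk hg h2, fun t ht => ?_⟩
  obtain ⟨i, hi, rfl⟩ := mem_sx0.mp ht
  rw [smul_fs hg, Nat.eq_of_beq_eq_true ((allB_iff _ _).mp h3 i hi)]

theorem sxPm_eq (a b : ℕ) : sxPm a b = 2 ^ a ||| 2 ^ b := by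
  show (1 <<< a) ||| (1 <<< b) = _
  rw [Nat.one_shiftLeft, Nat.one_shiftLeft]

theorem pair_exists {t : ℕ} {u : Finset GolayPt} (hu : u ⊆ fs t) (hc : u.card = 2) :
    ∃ a < 24, ∃ b < 24, a ≠ b ∧ tb t a = true ∧ tb t b = true ∧ u = fs (sxPm a b) := by
  obtain ⟨x, y, hxy, rfl⟩ := Finset.card_eq_two.mp hc
  have hx : x ∈ fs t := hu (Finset.mem_insert_self x _)
  have hy : y ∈ fs t := hu (Finset.mem_insert_of_mem (Finset.mem_singleton_self y))
  refine ⟨gIdx x, gIdx_lt x, gIdx y, gIdx_lt y, fun h => hxy (gIdx_injective h), ?_, ?_, ?_⟩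
  · rw [tb_eq]; exact mem_fs.mp hx
  · rw [tb_eq]; exact mem_fs.mp hy
  · rw [sxPm_eq, fs_or, Cfsg.Agent.H34.fs_two_pow (gIdx_lt x), Cfsg.Agent.H34.fs_two_pow (gIdx_lt y),
      gPt_gIdx, gPt_gIdx]
    rfl

theorem fs_xor_of_subset {t m : ℕ} (h : fs m ⊆ fs t) : fs (Nat.xor t m) = fs t \ fs m := by
  show fs (t ^^^ m) = _
  rw [fs_xor, symmDiff_def, Finset.sdiff_eq_empty_iff_subset.mpr h]
  simp

theorem mem_sxN_of_chk {P : ℕ} {g : Equiv.Perm GolayPt} (hg : Rep P g)
    (h1 : sxFixChk P = true) (h2 : sxPairChk P = true) : g ∈ sxN sx0 := by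
  refine ⟨mem_sxB_of_chk hg h1, fun t ht u hu hc => ?_⟩
  obtain ⟨i, hi, rfl⟩ := mem_sx0.mp ht
  obtain ⟨a, ha, b, hb, hab, hta, htb, rfl⟩ := pair_exists hu hc
  have h := (allB_iff _ _).mp ((allB_iff _ _).mp ((allB_iff _ _).mp h2 i hi) a ha) b hb
  rw [hta, htb] at h
  simp only [Bool.and_self, Bool.not_true, Bool.false_or, Bool.or_eq_true] at h
  rcases h with h | h | h
  · exact absurd (Nat.eq_of_beq_eq_true h) hab
  · left
    rw [smul_fs hg, Nat.eq_of_beq_eq_true h]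
  · right
    rw [smul_fs hg, Nat.eq_of_beq_eq_true h, fs_xor_of_subset hu]

theorem sxNel_spec {k : ℕ} (hk : k < 64) :
    ∃ g, Rep (sxNel k) g ∧ g ∈ sxN sx0 ∧ g * g = 1 := by
  have h := (allB_iff _ _).mp sxN_ok k hk
  unfold sxNChk at h
  simp only [Bool.and_eq_true] at h
  obtain ⟨h1, h2, h3⟩ := h
  have h1' := h1
  unfold sxFixChk at h1'
  simp only [Bool.and_eq_true] at h1'
  obtain ⟨g, hg⟩ := exists_rep h1'.1
  refine ⟨g, hg, mem_sxN_of_chk hg h1 h3, ?_⟩
  have hinv : Rep (sxNel k) g⁻¹ := rep_inv hg h2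
  have : g⁻¹ = g := rep_unique hinv hg
  calc g * g = g⁻¹ * g := by rw [this]
    _ = 1 := inv_mul_cancel g

theorem sxNel_inj {j k : ℕ} (hj : j < 64) (hk : k < 64) {g : Equiv.Perm GolayPt}
    (h1 : Rep (sxNel j) g) (h2 : Rep (sxNel k) g) : j = k := by
  have h := (allB_iff _ _).mp ((allB_iff _ _).mp sxN_distinct j hj) k hk
  simp only [Bool.or_eq_true, Bool.not_eq_true'] at h
  rcases h with h | h
  · exact Nat.eq_of_beq_eq_true h
  · exfalso
    have h' : allB (fun a => Nat.beq (lk (sxNel j) a) (lk (sxNel k) a)) 24 = true := by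
      rw [allB_iff]
      intro a ha
      have e1 := h1 (gPt a)
      have e2 := h2 (gPt a)
      rw [gIdx_gPt ha] at e1 e2
      rw [← e1, ← e2]
      exact Nat.beq_refl _
    rw [h'] at h
    exact Bool.noConfusion h

/-! ## An element of order three fixing every tetrad -/

theorem sxC_ok : sxFixChk sxC = true := by decide +kernel

theorem not_mem_sxN {P : ℕ} {g : Equiv.Perm GolayPt} (hg : Rep P g) (i m : ℕ) (hi : i < 6)
    (hsub : Nat.land m (sxT i) = m) (hpc : pcT m = 2) (hm : m < 2 ^ 24)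
    (hlt : imgN P m < 2 ^ 24)
    (h1 : imgN P m ≠ m) (h2 : imgN P m ≠ Nat.xor (sxT i) m) : g ∉ sxN sx0 := by
  intro hmem
  have hu : fs m ⊆ fs (sxT i) := by
    have : fs m ∩ fs (sxT i) = fs m := by rw [← fs_and]; exact congrArg fs hsub
    rw [← this]; exact Finset.inter_subset_right
  rcases hmem.2 (fs (sxT i)) (sxT_mem hi) (fs m) hu (by rw [card_fs', hpc]) with e | e
  · rw [smul_fs hg] at e
    exact h1 (fs_inj hlt hm e)
  · rw [smul_fs hg, ← fs_xor_of_subset hu] at e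
    exact h2 (fs_inj hlt (Nat.xor_lt_two_pow (sxT_lt hi) hm) e)

theorem sxC_spec : ∃ c, c ∈ sxB sx0 ∧ c ∉ sxN sx0 ∧ c * c ∉ sxN sx0 := by
  have h1 := sxC_ok
  have h1' := h1
  unfold sxFixChk at h1'
  simp only [Bool.and_eq_true] at h1'
  obtain ⟨c, hc⟩ := exists_rep h1'.1
  refine ⟨c, mem_sxB_of_chk hc h1, ?_, ?_⟩
  · exact not_mem_sxN hc 0 3 (by norm_num) (by decide +kernel) (by decide +kernel) (by norm_num)
      (by decide +kernel) (by decide +kernel) (by decide +kernel)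
  · exact not_mem_sxN (rep_compP hc hc) 0 3 (by norm_num) (by decide +kernel) (by decide +kernel)
      (by norm_num) (by decide +kernel) (by decide +kernel) (by decide +kernel)

end Cfsg.Agent.H33
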