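import Cfsg.Agent.H33.SxCert

/-!
# The structure of a sextet stabiliser (helper33): S1551
-/

set_option autoImplicit false

namespace Cfsg.Agent.H33

open Cfsg Cfsg.Agent.H9 MulAction
open scoped Pointwise

/-- the listed elements as a map into `sxN sx0` -/
noncomputable def sxNf (k : Fin 64) : ↥(sxN sx0) :=
  ⟨(sxNel_spec k.2).choose, (sxNel_spec k.2).choose_spec.2.1⟩

theorem sxNf_inj : Function.Injective sxNf := by
  intro j k h
  have h' : (sxNel_spec j.2).choose = (sxNel_spec k.2).choose := congrArg Subtype.val h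
  have h1 := (sxNel_spec j.2).choose_spec.1
  have h2 := (sxNel_spec k.2).choose_spec.1
  rw [h'] at h1
  exact Fin.ext (sxNel_inj j.2 k.2 h1 h2)

theorem sx0_card_sxN : Nat.card (sxN sx0) = 64 := by
  have hB := sx0_card_sxB
  have hdvd : Nat.card (sxN sx0) ∣ Nat.card (sxB sx0) := Subgroup.card_dvd_of_le (sxN_le_sxB sx0)
  rw [hB] at hdvd
  have hge : 64 ≤ Nat.card (sxN sx0) := by
    have := Nat.card_le_card_of_injective sxNf sxNf_inj
    rwa [Nat.card_fin] at this
  obtain ⟨c, hcB, hcN, hccN⟩ := sxC_spec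
  have hne : Nat.card (sxN sx0) ≠ 192 := by
    intro h
    have : sxN sx0 = sxB sx0 := Subgroup.eq_of_le_of_card_ge (sxN_le_sxB sx0) (by rw [h, hB])
    exact hcN (this ▸ hcB)
  have h96 : Nat.card (sxN sx0) ≠ 96 := by
    intro h
    have hidx : ((sxN sx0).subgroupOf (sxB sx0)).index = 2 := by
      have h1 := Subgroup.card_mul_index ((sxN sx0).subgroupOf (sxB sx0))
      rw [Nat.card_congr (Subgroup.subgroupOfEquivOfLe (sxN_le_sxB sx0)).toEquiv, h, hB] at h1
      omega
    have := Subgroup.mul_self_mem_of_index_two hidx ⟨c, hcB⟩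
    exact hccN (Subgroup.mem_subgroupOf.mp this)
  obtain ⟨k, hk⟩ := hdvd
  have hk3 : k ≤ 3 := by nlinarith
  have hk0 : 0 < k := by
    rcases k with _ | k
    · omega
    · omega
  interval_cases k <;> omega

theorem sx0_sq {x : Equiv.Perm GolayPt} (hx : x ∈ sxN sx0) : x * x = 1 := by
  have hbij : Function.Bijective sxNf :=
    sxNf_inj.bijective_of_nat_card_le (by rw [sx0_card_sxN, Nat.card_fin])
  obtain ⟨k, hk⟩ := hbij.2 ⟨x, hx⟩
  have : (sxNel_spec k.2).choose = x := congrArg Subtype.val hk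
  rw [← this]
  exact (sxNel_spec k.2).choose_spec.2.2

theorem exists_smul_sx0 {S : Finset (Finset GolayPt)} (hSx : S ∈ sextets) :
    ∃ g ∈ M24, g • sx0 = S := by
  have : S ∈ orbit ↥M24 sx0 := by rw [orbit_sextet sx0_mem]; exact hSx
  obtain ⟨g, rfl⟩ := this
  exact ⟨g.1, g.2, rfl⟩

theorem sxB_card {S : Finset (Finset GolayPt)} (hSx : S ∈ sextets) : Nat.card (sxB S) = 192 := by
  obtain ⟨g, hg, rfl⟩ := exists_smul_sx0 hSx
  rw [card_sxB_smul hg, sx0_card_sxB]

theorem sxN_card {S : Finset (Finset GolayPt)} (hSx : S ∈ sextets) : Nat.card (sxN S) = 64 := by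
  obtain ⟨g, hg, rfl⟩ := exists_smul_sx0 hSx
  rw [card_sxN_smul hg, sx0_card_sxN]

theorem sxN_sq {S : Finset (Finset GolayPt)} (hSx : S ∈ sextets) {x : Equiv.Perm GolayPt}
    (hx : x ∈ sxN S) : x * x = 1 := by
  obtain ⟨g, hg, rfl⟩ := exists_smul_sx0 hSx
  have h1 : g⁻¹ * x * g ∈ sxN sx0 := by
    rw [← conj_mem_sxN_iff hg (S := sx0)]
    have e : g * (g⁻¹ * x * g) * g⁻¹ = x := by group
    rw [e]; exact hx
  have h2 := sx0_sq h1
  have e : x * x = g * ((g⁻¹ * x * g) * (g⁻¹ * x * g)) * g⁻¹ := by group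
  rw [e, h2]; group

/-- S1551: structure of a sextet stabiliser. -/
theorem sextet_stabilizer_structure' (S : Finset (Finset GolayPt)) (hS : S ∈ sextets) :
    (∀ e : Equiv.Perm ↥S, ∃ g ∈ stabilizer M24 S, ∀ t : ↥S,
      (g : Equiv.Perm GolayPt) • (t : Finset GolayPt) = ((e t : ↥S) : Finset GolayPt)) ∧
    Nat.card {g : ↥(stabilizer M24 S) //
      ∀ t ∈ S, ((g : M24) : Equiv.Perm GolayPt) • t = t} = 192 ∧
    ∃ N : Subgroup ↥(stabilizer M24 S), N.Normal ∧ Nat.card N = 64 ∧ ∀ x ∈ N, x * x = 1 := by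
  refine ⟨?_, ?_, ?_⟩
  · intro e
    have hr := sxRes_range_top hS (sxB_card hS)
    have he : e ∈ (sxRes S).range := hr ▸ Subgroup.mem_top e
    obtain ⟨g, rfl⟩ := he
    have hg := Subgroup.mem_inf.mp g.2
    refine ⟨⟨g.1, hg.1⟩, ?_, fun t => rfl⟩
    rw [mem_stabilizer_iff]
    exact mem_stabilizer_iff.mp hg.2
  · rw [← sxB_card hS]
    exact Nat.card_congr
      { toFun := fun x => ⟨((x.1 : ↥M24) : Equiv.Perm GolayPt), ⟨(x.1 : ↥M24).2, x.2⟩⟩
        invFun := fun y => ⟨⟨⟨y.1, y.2.1⟩,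
          mem_stabilizer_iff.mpr (smul_eq_of_forall_smul_eq y.2.2)⟩, y.2.2⟩
        left_inv := fun x => rfl
        right_inv := fun y => rfl }
  · let φ : ↥(stabilizer ↥M24 S) →* Equiv.Perm GolayPt :=
      (Subgroup.subtype M24).comp (Subgroup.subtype _)
    refine ⟨(sxN S).comap φ, ⟨?_⟩, ?_, ?_⟩
    · intro n hn h
      show φ (h * n * h⁻¹) ∈ sxN S
      have hh : (φ h) • S = S := mem_stabilizer_iff.mp h.2
      have := conj_mem_sxN (S := S) (h := φ h) (x := φ n) (h.1.2) hn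
      rw [hh] at this
      rw [map_mul, map_mul, map_inv]
      exact this
    · rw [← sxN_card hS]
      exact Nat.card_congr
        { toFun := fun x => ⟨φ x.1, x.2⟩
          invFun := fun y => ⟨⟨⟨y.1, y.2.1.1⟩,
            mem_stabilizer_iff.mpr (smul_eq_of_forall_smul_eq y.2.1.2)⟩, y.2⟩
          left_inv := fun x => rfl
          right_inv := fun y => rfl }
    · intro x hx
      have := sxN_sq hS (x := φ x) hx
      apply Subtype.ext; apply Subtype.ext
      exact this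

end Cfsg.Agent.H33
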