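import Cfsg.Agent.H33.TriData
import Cfsg.Agent.H33.OctStab

/-!
# The stabiliser of a triad in `M24` (helper33): S1562, S1564

Orbits of a triad stabiliser on triads, from the kernel-checked census `TriData`.
-/

set_option autoImplicit false

namespace Cfsg.Agent.H33

open Cfsg Cfsg.Agent.H9 MulAction
open scoped Pointwise

/-- the set of triads -/
def triads : Set (Finset GolayPt) := {U | U.card = 3}

theorem triads_ncard : triads.ncard = 2024 := by
  have : triads = ((Finset.powersetCard 3 (Finset.univ : Finset GolayPt) :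
      Finset (Finset GolayPt)) : Set (Finset GolayPt)) := by
    ext U; simp [triads]
  rw [this, Set.ncard_coe_finset, Finset.card_powersetCard, Finset.card_univ, card_golayPt]
  decide

theorem fs_subset_of_land {a b : ℕ} (h : Nat.land a b = a) : fs a ⊆ fs b := by
  have : fs a ∩ fs b = fs a := by rw [← fs_and]; exact congrArg fs h
  rw [← this]
  exact Finset.inter_subset_right

theorem land_of_fs_subset {a b : ℕ} (ha : a < 2 ^ 24) (h : fs a ⊆ fs b) : Nat.land a b = a := by
  have h1 : fs (a &&& b) = fs a := by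
    rw [fs_and]; exact Finset.inter_eq_left.mpr h
  exact fs_inj (lt_of_le_of_lt Nat.and_le_left ha) ha h1

/-- a same-orbit pair under a stabiliser gives an element of the group -/
theorem exists_of_same_orbit {G X : Type*} [Group G] [MulAction G X] (x0 ρ U U' : X)
    (hU : U ∈ orbit (stabilizer G x0) ρ) (hU' : U' ∈ orbit (stabilizer G x0) ρ) :
    ∃ h : G, h • x0 = x0 ∧ h • U = U' := by
  obtain ⟨h1, rfl⟩ := hU
  obtain ⟨h2, rfl⟩ := hU'
  refine ⟨(h2 : G) * (h1 : G)⁻¹, ?_, ?_⟩
  · rw [← mem_stabilizer_iff]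
    exact (stabilizer G x0).mul_mem h2.2 ((stabilizer G x0).inv_mem h1.2)
  · show ((h2 : G) * (h1 : G)⁻¹) • (h1 : G) • ρ = (h2 : G) • ρ
    rw [mul_smul, inv_smul_smul]

/-- the number of common points with `T` is constant on orbits of the stabiliser of `T` -/
theorem inter_card_of_orbit {T U V : Finset GolayPt}
    (h : U ∈ orbit (stabilizer ↥M24 T) V) : (T ∩ U).card = (T ∩ V).card := by
  obtain ⟨k, rfl⟩ := h
  have hk : (k : ↥M24) • T = T := k.2
  have e : (k : ↥M24) • (T ∩ V) = T ∩ (k : ↥M24) • V := by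
    rw [Finset.smul_finset_inter, hk]
  show (T ∩ (k : ↥M24) • V).card = _
  rw [← e, Finset.card_smul_finset]

/-- lying in a common octad with `T` -/
def coOct (T U : Finset GolayPt) : Prop := ∃ o ∈ octads, T ∪ U ⊆ o

theorem coOct_smul (g : ↥M24) (T U : Finset GolayPt) : coOct (g • T) (g • U) ↔ coOct T U := by
  have key : ∀ (g : ↥M24) (T U : Finset GolayPt), coOct T U → coOct (g • T) (g • U) := by
    rintro g T U ⟨o, ho, hsub⟩
    refine ⟨g • o, m24_smul_mem_octads g.2 ho, ?_⟩
    rw [← Finset.smul_finset_union]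
    exact Finset.smul_finset_subset_smul_finset hsub
  constructor
  · intro h
    have := key g⁻¹ _ _ h
    rwa [inv_smul_smul, inv_smul_smul] at this
  · exact key g T U

theorem coOct_of_orbit {T U V : Finset GolayPt}
    (h : U ∈ orbit (stabilizer ↥M24 T) V) : coOct T U ↔ coOct T V := by
  obtain ⟨k, rfl⟩ := h
  have hk : (k : ↥M24) • T = T := k.2
  show coOct T ((k : ↥M24) • V) ↔ _
  have := coOct_smul (k : ↥M24) T V
  rw [hk] at this
  exact this

theorem tri_hAinv : ∀ g ∈ M24, ∀ a ∈ triads, g • a ∈ triads := by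
  intro g _ a ha
  show (g • a).card = 3
  rw [Finset.card_smul_finset]
  exact ha

theorem tri_base_mem : fs (fldW 24 triE (fld12 triRG 0)) ∈ triads := by
  rw [triBase_eq]
  show (fs 7).card = 3
  rw [card_fs']
  decide

theorem tri_inter (a b : ℕ) : (fs a ∩ fs b).card = pcT (Nat.land a b) := card_inter_fs a b

theorem tri_orbit_ne :
    orbit (stabilizer ↥M24 (fs (fldW 24 triE (fld12 triRG 0)))) (fs (fldW 24 triE (fld12 triRH 2))) ≠
    orbit (stabilizer ↥M24 (fs (fldW 24 triE (fld12 triRG 0)))) (fs (fldW 24 triE (fld12 triRH 3))) := by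
  intro h
  have hmem : fs (fldW 24 triE (fld12 triRH 2)) ∈
      orbit (stabilizer ↥M24 (fs (fldW 24 triE (fld12 triRG 0)))) (fs (fldW 24 triE (fld12 triRH 3))) :=
    h ▸ mem_orbit_self _
  have := inter_card_of_orbit hmem
  rw [triBase_eq, triRoot2_eq, triRoot3_eq, tri_inter, tri_inter] at this
  revert this
  decide

theorem tri_census :
    triads = orbit ↥M24 (fs (fldW 24 triE (fld12 triRG 0))) ∧
    Census ↥M24 (Finset GolayPt) (fs (fldW 24 triE (fld12 triRG 0))) 2024 120960 4
      (fun j => fs (fldW 24 triE j)) (fun j => tTag (fld32 triTH j))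
      (fun i => fs (fldW 24 triE (fld12 triRH (i + 1)))) ![63, 630, 210, 1120] := by
  refine cert_census m24_act_finset fs setValid setEdge setEdge_sound setObj_inj triads tri_hAinv
    24 2024 120960 4 triE ![63, 630, 210, 1120] triads_ncard (by norm_num) (by norm_num)
    triGG triGGI triNgG triTG triRG triGG_ok triSorted_ok triForG_ok triTagG_ok tri_base_mem
    triGH triGHI triNgH triTH triRH triGH_ok triForH_ok triTagH_ok triR0_ok triCount_ok ?_
  intro J hJ hall
  by_cases h12 : (1 : Fin 4) ∈ J ∧ (2 : Fin 4) ∈ J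
  · exact absurd (hall 1 h12.1 2 h12.2) tri_orbit_ne
  · clear hall
    revert J
    decide

/-- the census at an arbitrary triad, with the invariants of the class representatives -/
theorem triad_census (T : Finset GolayPt) (hT : T.card = 3) :
    ∃ (f : ℕ → Finset GolayPt) (τ : ℕ → ℕ) (ρ : Fin 4 → Finset GolayPt),
      Census ↥M24 (Finset GolayPt) T 2024 120960 4 f τ ρ ![63, 630, 210, 1120] ∧
      orbit ↥M24 T = triads ∧
      (T ∩ ρ 0).card = 2 ∧ (T ∩ ρ 1).card = 1 ∧ (T ∩ ρ 2).card = 0 ∧ coOct T (ρ 2) ∧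
      (T ∩ ρ 3).card = 0 ∧ ¬ coOct T (ρ 3) := by
  obtain ⟨hA, c⟩ := tri_census
  have hTm : T ∈ orbit ↥M24 (fs (fldW 24 triE (fld12 triRG 0))) := hA ▸ hT
  obtain ⟨g, rfl⟩ := hTm
  have hcard : ∀ U : Finset GolayPt, ((g • fs (fldW 24 triE (fld12 triRG 0))) ∩ g • U).card =
      (fs (fldW 24 triE (fld12 triRG 0)) ∩ U).card := by
    intro U
    rw [← Finset.smul_finset_inter, Finset.card_smul_finset]
  refine ⟨_, _, _, c.smul g, ?_, ?_, ?_, ?_, ?_, ?_, ?_⟩
  · show orbit ↥M24 (g • fs (fldW 24 triE (fld12 triRG 0))) = triads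
    rw [orbit_smul, ← hA]
  · show ((g • fs (fldW 24 triE (fld12 triRG 0))) ∩ g • fs (fldW 24 triE (fld12 triRH 1))).card = 2
    rw [hcard, triBase_eq, triRoot1_eq, tri_inter]
    decide
  · show ((g • fs (fldW 24 triE (fld12 triRG 0))) ∩ g • fs (fldW 24 triE (fld12 triRH 2))).card = 1
    rw [hcard, triBase_eq, triRoot2_eq, tri_inter]
    decide
  · show ((g • fs (fldW 24 triE (fld12 triRG 0))) ∩ g • fs (fldW 24 triE (fld12 triRH 3))).card = 0
    rw [hcard, triBase_eq, triRoot3_eq, tri_inter]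
    decide
  · show coOct (g • fs (fldW 24 triE (fld12 triRG 0))) (g • fs (fldW 24 triE (fld12 triRH 3)))
    rw [coOct_smul, triBase_eq, triRoot3_eq]
    obtain ⟨h1, h2, h3⟩ := triOct_ok
    refine ⟨fs 0x149f, fs_mem_octads h1 h2, ?_⟩
    rw [← fs_or]
    exact fs_subset_of_land h3
  · show ((g • fs (fldW 24 triE (fld12 triRG 0))) ∩ g • fs (fldW 24 triE (fld12 triRH 4))).card = 0
    rw [hcard, triBase_eq, triRoot4_eq, tri_inter]
    decide
  · show ¬ coOct (g • fs (fldW 24 triE (fld12 triRG 0))) (g • fs (fldW 24 triE (fld12 triRH 4)))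
    rw [coOct_smul, triBase_eq, triRoot4_eq]
    rintro ⟨o, ho, hsub⟩
    obtain ⟨k, hk, rfl, hp⟩ := octad_eq_fs ho
    rw [← fs_or] at hsub
    have hl := land_of_fs_subset (by decide) hsub
    have hc := (allB_iff _ _).mp triNoOct_ok k hk
    rw [cwN_eq] at hc
    unfold isOct at hp
    rw [hp, Bool.true_and] at hc
    have hl' : Nat.land 0x3f (cw k) = 0x3f := hl
    rw [hl'] at hc
    revert hc
    decide

/-- S1564: the stabiliser of a triad is a maximal subgroup of `M24`. -/
theorem triad_stabilizer_isCoatom (s : Finset GolayPt) (hs : s.card = 3) :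
    IsCoatom (stabilizer ↥M24 s) := by
  obtain ⟨f, τ, ρ, c, -⟩ := triad_census s hs
  exact c.isCoatom 0 (by decide)

end Cfsg.Agent.H33
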