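import Cfsg.Agent.H33.Triad

/-!
# Orbits of a triad stabiliser on the triads disjoint from the triad (helper33): S1562
-/

set_option autoImplicit false

namespace Cfsg.Agent.H33

open Cfsg Cfsg.Agent.H9 MulAction
open scoped Pointwise

theorem fin4_cases (i : Fin 4) : i = 0 ∨ i = 1 ∨ i = 2 ∨ i = 3 := by
  revert i; decide

theorem triad_orbits (T : Finset GolayPt) (hT : T.card = 3) :
    {U : Finset GolayPt | U.card = 3 ∧ Disjoint T U ∧ (∃ o ∈ octads, T ∪ U ⊆ o)}.ncard = 210 ∧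
    {U : Finset GolayPt | U.card = 3 ∧ Disjoint T U ∧ ¬ (∃ o ∈ octads, T ∪ U ⊆ o)}.ncard = 1120 ∧
    ∀ U U' : Finset GolayPt, U.card = 3 → U'.card = 3 → Disjoint T U → Disjoint T U' →
      ((∃ o ∈ octads, T ∪ U ⊆ o) ↔ (∃ o ∈ octads, T ∪ U' ⊆ o)) →
      ∃ g : Equiv.Perm GolayPt, g ∈ M24 ∧ g • T = T ∧ g • U = U' := by
  obtain ⟨f, τ, ρ, c, hAo, h0, h1, h2, hP2, h3, hP3⟩ := triad_census T hT
  have hdisj : ∀ U : Finset GolayPt, Disjoint T U ↔ (T ∩ U).card = 0 := by
    intro U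
    rw [Finset.card_eq_zero, Finset.disjoint_iff_inter_eq_empty]
  have hclass : ∀ U : Finset GolayPt, U.card = 3 → Disjoint T U →
      (coOct T U ∧ U ∈ orbit (stabilizer ↥M24 T) (ρ 2)) ∨
      (¬ coOct T U ∧ U ∈ orbit (stabilizer ↥M24 T) (ρ 3)) := by
    intro U hU hd
    have hUo : U ∈ orbit ↥M24 T := hAo ▸ hU
    have hd0 := (hdisj U).mp hd
    rcases c.cover U hUo with rfl | ⟨i, hi⟩
    · exfalso
      rw [Finset.inter_self, hT] at hd0
      omega
    · have hcard := inter_card_of_orbit hi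
      have hco := coOct_of_orbit hi
      rcases fin4_cases i with rfl | rfl | rfl | rfl
      · exfalso; rw [hd0, h0] at hcard; omega
      · exfalso; rw [hd0, h1] at hcard; omega
      · exact Or.inl ⟨hco.mpr hP2, hi⟩
      · exact Or.inr ⟨fun h => hP3 (hco.mp h), hi⟩
  have hmem : ∀ (i : Fin 4) (U : Finset GolayPt), U ∈ orbit (stabilizer ↥M24 T) (ρ i) →
      U.card = 3 := by
    intro i U hU
    have := c.orbit_sub i hU
    rw [hAo] at this
    exact this
  have hset1 : {U : Finset GolayPt | U.card = 3 ∧ Disjoint T U ∧ (∃ o ∈ octads, T ∪ U ⊆ o)} =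
      orbit (stabilizer ↥M24 T) (ρ 2) := by
    ext U
    constructor
    · rintro ⟨hU, hd, hP⟩
      rcases hclass U hU hd with h | h
      · exact h.2
      · exact absurd hP h.1
    · intro hU
      have hcard := inter_card_of_orbit hU
      rw [h2] at hcard
      exact ⟨hmem 2 U hU, (hdisj U).mpr hcard, (coOct_of_orbit hU).mpr hP2⟩
  have hset2 : {U : Finset GolayPt | U.card = 3 ∧ Disjoint T U ∧ ¬ (∃ o ∈ octads, T ∪ U ⊆ o)} =
      orbit (stabilizer ↥M24 T) (ρ 3) := by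
    ext U
    constructor
    · rintro ⟨hU, hd, hP⟩
      rcases hclass U hU hd with h | h
      · exact absurd h.1 hP
      · exact h.2
    · intro hU
      have hcard := inter_card_of_orbit hU
      rw [h3] at hcard
      exact ⟨hmem 3 U hU, (hdisj U).mpr hcard, fun h => hP3 ((coOct_of_orbit hU).mp h)⟩
  refine ⟨?_, ?_, ?_⟩
  · rw [hset1, c.ncard_orbit 2]
    rfl
  · rw [hset2, c.ncard_orbit 3]
    rfl
  · intro U U' hU hU' hd hd' hiff
    have key : ∀ i : Fin 4, U ∈ orbit (stabilizer ↥M24 T) (ρ i) →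
        U' ∈ orbit (stabilizer ↥M24 T) (ρ i) →
        ∃ g : Equiv.Perm GolayPt, g ∈ M24 ∧ g • T = T ∧ g • U = U' := by
      intro i hi hi'
      obtain ⟨h, hT', hUU'⟩ := exists_of_same_orbit T (ρ i) U U' hi hi'
      exact ⟨(h : Equiv.Perm GolayPt), h.2, hT', hUU'⟩
    rcases hclass U hU hd with h | h <;> rcases hclass U' hU' hd' with h' | h'
    · exact key 2 h.2 h'.2
    · exact absurd (hiff.mp h.1) h'.1
    · exact absurd (hiff.mpr h'.1) h.1
    · exact key 3 h.2 h'.2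

end Cfsg.Agent.H33
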