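import Cfsg.Agent.H33.TrioData
import Cfsg.Agent.H33.SextOrb

/-!
# Orbits of a trio stabiliser on trios, and its maximality (helper33): S1559
-/

set_option autoImplicit false

namespace Cfsg.Agent.H33

open Cfsg Cfsg.Agent.H9 MulAction
open scoped Pointwise

theorem trio_census :
    trios = orbit ↥M24 (trioObj (fldW 72 trioE (fld12 trioRG 0))) ∧
    Census ↥M24 (Finset (Finset GolayPt)) (trioObj (fldW 72 trioE (fld12 trioRG 0)))
      3795 64512 4 (fun j => trioObj (fldW 72 trioE j)) (fun j => tTag (fld32 trioTH j))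
      (fun i => trioObj (fldW 72 trioE (fld12 trioRH (i + 1)))) ![42, 56, 1008, 2688] := by
  refine cert_census m24_act_finset2 trioObj trioValid trioEdge trioEdge_sound
    trioObj_inj trios trio_hAinv 72 3795 64512 4 trioE ![42, 56, 1008, 2688] trios_ncard'
    (by norm_num) (by norm_num) trioGG trioGGI trioNgG trioTG trioRG trioGG_ok trioSorted_ok
    trioForG_ok trioTagG_ok (trio_mem_of_ok trioBase_ok)
    trioGH trioGHI trioNgH trioTH trioRH trioGH_ok trioForH_ok trioTagH_ok trioR0_ok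
    trioCount_ok ?_
  intro J hJ hall
  clear hall
  revert J
  decide

/-- S1559: the orbits of a trio stabiliser on the trios, and its maximality. -/
theorem trio_orbits (T : Finset (Finset GolayPt)) (hT : T ∈ trios) :
    ∃ X₁ ∈ trios, ∃ X₂ ∈ trios, ∃ X₃ ∈ trios, ∃ X₄ ∈ trios,
      (orbit ↥(stabilizer ↥M24 T) X₁).ncard = 42 ∧
      (orbit ↥(stabilizer ↥M24 T) X₂).ncard = 56 ∧
      (orbit ↥(stabilizer ↥M24 T) X₃).ncard = 1008 ∧
      (orbit ↥(stabilizer ↥M24 T) X₄).ncard = 2688 ∧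
      trios = {T} ∪ orbit ↥(stabilizer ↥M24 T) X₁ ∪ orbit ↥(stabilizer ↥M24 T) X₂ ∪
        orbit ↥(stabilizer ↥M24 T) X₃ ∪ orbit ↥(stabilizer ↥M24 T) X₄ ∧
      IsCoatom (stabilizer ↥M24 T) := by
  obtain ⟨hA, c0⟩ := trio_census
  have hTm : T ∈ orbit ↥M24 (trioObj (fldW 72 trioE (fld12 trioRG 0))) := hA ▸ hT
  obtain ⟨g, rfl⟩ := hTm
  have c := c0.smul g
  have horb : orbit ↥M24 (g • trioObj (fldW 72 trioE (fld12 trioRG 0))) = trios := by
    rw [orbit_smul, ← hA]
  have hmem : ∀ i : Fin 4, g • trioObj (fldW 72 trioE (fld12 trioRH (i + 1))) ∈ trios :=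
    fun i => horb ▸ c.rep_mem i
  refine ⟨_, hmem 0, _, hmem 1, _, hmem 2, _, hmem 3, c.ncard_orbit 0, c.ncard_orbit 1,
    c.ncard_orbit 2, c.ncard_orbit 3, ?_, c.isCoatom 0 (by decide)⟩
  rw [← horb]
  exact c.union4

end Cfsg.Agent.H33
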